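import Cfsg.Agent.H25.UGDefs
import Cfsg.Agent.H32.ExtField
import Cfsg.Agent.H31.HermSU
import Cfsg.Agent.H25.MatAlg

/-! The normaliser of an adjoint closed field of degree seven in `SU₇(q)`: transfer to the field
model. -/

set_option autoImplicit false

namespace Cfsg.Agent.H33.UgC4

open Cfsg Module Matrix Cfsg.Geo Cfsg.Agent.H31 Cfsg.Agent.H77.Sg Cfsg.Agent.H25.UG

universe u

section
variable {F K V : Type*} [Field F] [Field K] [Algebra F K] [AddCommGroup V] [Module F V]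
  {σ : F →+* F}

/-- The form pulled back along a linear equivalence. -/
def pull (B : V →ₛₗ[σ] V →ₗ[F] F) (e : K ≃ₗ[F] V) : K →ₛₗ[σ] K →ₗ[F] F :=
  LinearMap.mk₂'ₛₗ σ (RingHom.id F) (fun x y => B (e x) (e y))
    (fun x x' y => by simp) (fun c x y => by simp) (fun x y y' => by simp) (fun c x y => by simp)

theorem pull_apply (B : V →ₛₗ[σ] V →ₗ[F] F) (e : K ≃ₗ[F] V) (x y : K) :
    pull B e x y = B (e x) (e y) := rfl

theorem isHerm_pull {B : V →ₛₗ[σ] V →ₗ[F] F} (h : IsHerm B) (e : K ≃ₗ[F] V) : IsHerm (pull B e) :=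
  ⟨⟨h.inv, fun x y => h.symm _ _⟩, fun x hx => e.injective (by
    rw [map_zero]
    refine h.nondeg _ fun y => ?_
    obtain ⟨y, rfl⟩ := e.surjective y
    exact hx y)⟩

theorem exists_scale [Finite F] [Finite K] {B : K →ₛₗ[σ] K →ₗ[F] F} (h : IsHerm B) {n : ℕ}
    (hK : Nat.card K = n ^ 2) (ha : ∀ a : K, ∃ a' : K, ∀ x y, B x (a * y) = B (a' * x) y) :
    ∃ γ : K, γ ≠ 0 ∧ ∀ x y, B (γ * x) (γ * y) = Algebra.trace F K (x ^ n * y) := by
  have : FiniteDimensional F K := Module.Finite.of_finite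
  have := Fintype.ofFinite K
  choose s hs using ha
  have un : ∀ a a' : K, (∀ y, B a y = B a' y) → a = a' := fun a a' e =>
    sub_eq_zero.1 (h.nondeg _ fun y => by rw [map_sub, LinearMap.sub_apply, e, sub_self])
  have hs1 : ∀ a y, B (s a) y = B 1 (a * y) := fun a y => by rw [hs, mul_one]
  let τ : K →+* K :=
    { toFun := s
      map_one' := un _ _ fun y => by rw [hs1, one_mul]
      map_mul' := fun a b => un _ _ fun y => by rw [hs1, mul_comm a b, mul_assoc, hs, hs, mul_one]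
      map_zero' := un _ _ fun y => by rw [hs1]; simp
      map_add' := fun a b => un _ _ fun y => by
        rw [hs1, map_add, LinearMap.add_apply, hs1, hs1, add_mul, map_add] }
  have ss : ∀ a, s (s a) = a := fun a => un _ _ fun y => by
    rw [hs1, ← h.symm, ← hs, h.symm, mul_one]
  have sc : ∀ c : F, s (algebraMap F K c) = algebraMap F K (σ c) := fun c => un _ _ fun y => by
    rw [hs1, ← Algebra.smul_def, Algebra.algebraMap_eq_smul_one, smul_left, smul_right, h.inv.invol]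
  have hτ : IsInvol τ := ⟨ss, by
    obtain ⟨c, hc⟩ := h.inv.ne_id
    exact ⟨algebraMap F K c, fun e => hc ((algebraMap F K).injective ((sc c).symm.trans e))⟩⟩
  obtain ⟨m, hm, hp⟩ := hτ.exists_q
  obtain rfl : m = n := Nat.pow_left_injective two_ne_zero
    (hm.symm.trans (Nat.card_eq_fintype_card.symm.trans hK))
  have nd := traceForm_nondegenerate F K
  obtain ⟨β, hβ⟩ : ∃ β : K, ∀ y, Algebra.trace F K (β * y) = B 1 y :=
    ⟨((Algebra.traceForm F K).toDual nd).symm (B 1), fun y =>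
      LinearMap.BilinForm.apply_toDual_symm_apply (hB := nd) (B 1) y⟩
  have hB : ∀ x y, B x y = Algebra.trace F K (β * (s x * y)) := fun x y => by
    rw [hβ, hs, ss, mul_one]
  have tr : ∀ z, Algebra.trace F K (s z) = σ (Algebra.trace F K z) := fun z => by
    let e₁ : F ≃+* F := RingEquiv.ofRingHom σ σ (RingHom.ext h.inv.invol) (RingHom.ext h.inv.invol)
    let e₂ : K ≃+* K := RingEquiv.ofRingHom τ τ (RingHom.ext ss) (RingHom.ext ss)
    have := Algebra.trace_eq_of_equiv_equiv e₁ e₂ (RingHom.ext fun c => (sc c).symm) z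
    rw [this]
    exact (h.inv.invol _).symm
  have sβ : s β = β := by
    refine sub_eq_zero.1 (nd.1 _ fun y => ?_)
    rw [Algebra.traceForm_apply, sub_mul, map_sub, hβ, ← h.symm, hB, ← tr, mul_one]
    rw [show s (β * s y) = s β * s (s y) from τ.map_mul _ _, ss, sub_self]
  have β0 : β ≠ 0 := fun e => one_ne_zero (h.nondeg 1 fun y => by rw [← hβ, e, zero_mul, map_zero])
  obtain ⟨b, hb⟩ := hτ.exists_norm_eq (a := β⁻¹) (by rw [map_inv₀]; exact congrArg _ sβ)
  refine ⟨b, fun e => β0 (by simpa [e] using hb.symm), fun x y => ?_⟩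
  rw [hB, ← hp, show s (b * x) = τ b * τ x from τ.map_mul _ _,
    show β * (τ b * τ x * (b * y)) = β * (b * τ b) * (τ x * y) by ring, hb, mul_inv_cancel₀ β0,
    one_mul]

end

theorem c4 (mx : MaxStmt.{u}) : C4Stmt.{u} := by
  intro F _ _ q hF K hK hA
  let _ : Field K := (H32.isField_of_isFieldSubalgebra (by norm_num) hK).toField
  have hrk : finrank F K = 7 := hK.finrank_eq
  obtain ⟨v₀, hv₀⟩ := exists_ne (0 : Fin 7 → F)
  let e₀ : K →ₗ[F] (Fin 7 → F) := (LinearMap.toSpanSingleton K (Fin 7 → F) v₀).restrictScalars F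
  have inj : Function.Injective e₀ := smul_left_injective K hv₀
  let e₁ : K ≃ₗ[F] (Fin 7 → F) := e₀.linearEquivOfInjective inj (by simp [hrk])
  have em₁ : ∀ a x : K, e₁ (a * x) = (a : Matrix (Fin 7) (Fin 7) F) *ᵥ e₁ x :=
    fun a x => mul_smul a x v₀
  have hh := isHerm_hermB hF 7
  obtain ⟨γ, γ0, hγ⟩ := exists_scale (isHerm_pull hh e₁) (n := q ^ 7) (by
    rw [Module.natCard_eq_pow_finrank (K := F), hrk, Nat.card_eq_fintype_card, hF]; ring)
    fun a => by
      obtain ⟨k, hk, e⟩ := hA a a.2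
      refine ⟨⟨k, hk⟩, fun x y => ?_⟩
      rw [pull_apply, pull_apply, em₁, em₁, ← hermForm_eq hF, ← hermForm_eq hF, e]
  let e : K ≃ₗ[F] (Fin 7 → F) := (mulH F K (Units.mk0 γ γ0)).trans e₁
  have em : ∀ a x : K, e (a * x) = (a : Matrix (Fin 7) (Fin 7) F) *ᵥ e x := fun a x => by
    change e₁ (γ * (a * x)) = _ *ᵥ e₁ (γ * x)
    rw [mul_left_comm, em₁]
  obtain ⟨N, hN, -⟩ := (H51.SgKit.kit F K (by rw [hrk]; norm_num)).sub
  have key := mx F K (frobQ hF) (pull (hermB hF 7) e) q ⟨hF, fun _ => rfl, isHerm_pull hh e⟩ hrk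
    hγ N hN
  let f : GL (Fin 7) F ≃* (K ≃ₗ[F] K) := (glEquiv (Fin 7) F).trans (autCongr e.symm)
  have hf : ∀ g x, e (f g x) = (g : Matrix (Fin 7) (Fin 7) F) *ᵥ e x :=
    fun g x => e.apply_symm_apply _
  have hS : ∀ g, f g ∈ sisom (pull (hermB hF 7) e) ↔ g ∈ GU 7 F q ⊓ specialLinear (Fin 7) F :=
    fun g => (autCongr_mem_sisom (e := e.symm) (B := hermB hF 7) fun x y => by
      rw [pull_apply, e.apply_symm_apply, e.apply_symm_apply]).trans (glEquiv_mem_sisom hF)
  have hn : ∀ g : GL (Fin 7) F, Nm (f g) ↔ ∀ k ∈ K, H25.cj g k ∈ K := fun g => by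
    refine ⟨fun b k hk => ?_, fun b k => ⟨⟨_, b k k.2⟩, fun x => e.injective ?_⟩⟩
    · obtain ⟨a', ha'⟩ := b ⟨k, hk⟩
      have : H25.cj g k = a' := H25.mat_ext_mulVec fun y => by
        obtain ⟨x, rfl⟩ := ((f g).trans e).surjective y
        have := congrArg e (ha' x)
        rw [hf, em, em] at this
        rw [LinearEquiv.trans_apply, ← this, hf, H25.cj_mulVec]
      rw [this]; exact a'.2
    · rw [hf, em, em, hf, H25.cj_mulVec]
  refine isMaximalIn_of_equiv f hS (fun g => and_congr ?_ (hS g)) key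
  change f g ∈ N ↔ g ∈ subalgebraNormalizer K
  rw [H25.mem_subalgebraNormalizer]
  refine ⟨fun b k => ⟨(hn g).1 ((hN _).1 b) k, fun c => ?_⟩,
    fun b => (hN _).2 ((hn g).2 fun k hk => (b k).1 hk)⟩
  have := (hn g⁻¹).1 ((hN _).1 (by rw [map_inv]; exact N.inv_mem b)) _ c
  rwa [H25.cj_inv_cj] at this

end Cfsg.Agent.H33.UgC4
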