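import Cfsg.Agent.H25.UGDefs

/-! The cocycle laws of a unipotent group without transvections. -/

set_option autoImplicit false

namespace Cfsg.Agent.H33.UgTvk

open Cfsg Module Cfsg.Agent.H31 Cfsg.Agent.H25.UG
open Cfsg.Agent.H53.Uw (St)

universe u

section
variable {E V : Type*} [Field E] [AddCommGroup V] [Module E V] [FiniteDimensional E V]
  {σ : E →+* E} {B : V →ₛₗ[σ] V →ₗ[E] E} {W : Submodule E V} {v : V}

theorem mem_of_perp (h : IsHerm B) (h7 : finrank E V = 7) (h3 : finrank E W = 3)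
    (ti : TotIso B W) (vv : B v v = 1) (ov : ∀ w ∈ W, B w v = 0) {t : V}
    (h1 : ∀ w ∈ W, B w t = 0) (h2 : B v t = 0) : t ∈ W := by
  have hv : v ∉ W := fun c => one_ne_zero (vv.symm.trans (ov v c))
  have e : W ⊔ E ∙ v = perp B W := by
    refine Submodule.eq_of_le_of_finrank_le (sup_le (totIso_iff_le_perp.1 ti)
      ((Submodule.span_singleton_le_iff_mem _ _).2 ov)) ?_
    have a1 := h.finrank_add_finrank_perp W
    have a2 : finrank E W < finrank E ↥(W ⊔ E ∙ v) := Submodule.finrank_lt_finrank_of_lt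
      (lt_of_le_of_ne le_sup_left fun c => hv (c ▸ Submodule.mem_sup_right
        (Submodule.mem_span_singleton_self v)))
    omega
  rw [← h.perp_perp W, ← e, perp_sup]
  exact ⟨h1, mem_perp_span_singleton.2 h2⟩

theorem exists_w (h : IsHerm B) (h7 : finrank E V = 7) (h3 : finrank E W = 3)
    (ti : TotIso B W) (vv : B v v = 1) (ov : ∀ w ∈ W, B w v = 0) {n : V ≃ₗ[E] V}
    (hn : n ∈ isom B) (fx : ∀ w ∈ W, n w = w) {a : V} (ha : a ∈ W) (hv : n v = v + a) (u : V) :
    ∃ w ∈ W, n u = u - B a u • v + w := by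
  have e : ∀ w ∈ W, B w (n u) = B w u := fun w hw => by rw [← hn w u, fx w hw]
  refine ⟨n u - u + B a u • v, mem_of_perp h h7 h3 ti vv ov (fun w hw => ?_) ?_, by abel⟩
  · rw [map_add, map_sub, smul_right, e w hw, ov w hw, sub_self, mul_zero, add_zero]
  · have := hn v u
    rw [hv, add_left, e a ha] at this
    rw [map_add, map_sub, smul_right, vv]
    linear_combination this

end

theorem tvk : TvkStmt.{u} := by
  intro E V _ _ _ _ _ σ B q S e₁ e₂ e₃ v x y z a₁ a₂ a₃ st h7 m nt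
  have : FiniteDimensional E V := Module.Finite.of_finite
  have li : ∀ c₁ c₂ c₃ : E, c₁ • e₁ + c₂ • e₂ + c₃ • e₃ = 0 → c₁ = 0 ∧ c₂ = 0 ∧ c₃ = 0 :=
    fun c₁ c₂ c₃ e => by
      have := Fintype.linearIndependent_iff.1 m.li ![c₁, c₂, c₃] (by
        simpa [Fin.sum_univ_three] using e)
      exact ⟨this 0, this 1, this 2⟩
  have mu : ∀ (g h : S) u, (g * h).1 u = g.1 (h.1 u) := fun _ _ _ => rfl
  have c2 : ∀ g h, x (g * h) = x g + x h := fun g h => by
    have e := m.g₂ (g * h)
    rw [mu, m.g₂ h, map_add, map_smul, m.g₂, m.g₁] at e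
    exact sub_eq_zero.1 (li (x (g * h) - (x g + x h)) 0 0 (by
      linear_combination (norm := module) -e)).1
  have c3 : ∀ g h, z (g * h) = z g + z h + x g * y h ∧ y (g * h) = y g + y h := fun g h => by
    have e := m.g₃ (g * h)
    rw [mu, m.g₃ h, map_add, map_add, map_smul, map_smul, m.g₃, m.g₂, m.g₁] at e
    have := li (z (g * h) - (z g + z h + x g * y h)) (y (g * h) - (y g + y h)) 0 (by
      linear_combination (norm := module) -e)
    exact ⟨sub_eq_zero.1 this.1, sub_eq_zero.1 this.2.1⟩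
  have cv : ∀ g h, a₁ (g * h) = a₁ g + a₁ h + x g * a₂ h + z g * a₃ h ∧
      a₂ (g * h) = a₂ g + a₂ h + y g * a₃ h ∧ a₃ (g * h) = a₃ g + a₃ h := fun g h => by
    have e := m.gv (g * h)
    rw [mu, m.gv h, map_add, map_add, map_add, map_smul, map_smul, map_smul, m.gv, m.g₃, m.g₂,
      m.g₁] at e
    have := li (a₁ (g * h) - (a₁ g + a₁ h + x g * a₂ h + z g * a₃ h))
      (a₂ (g * h) - (a₂ g + a₂ h + y g * a₃ h)) (a₃ (g * h) - (a₃ g + a₃ h)) (by
      linear_combination (norm := module) -e)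
    exact ⟨sub_eq_zero.1 this.1, sub_eq_zero.1 this.2.1, sub_eq_zero.1 this.2.2⟩
  set W := Submodule.span E {e₁, e₂, e₃} with hW
  have h3 : finrank E W = 3 := by
    have := finrank_span_eq_card m.li
    rwa [show Set.range ![e₁, e₂, e₃] = {e₁, e₂, e₃} by ext; simp; tauto, Fintype.card_fin]
      at this
  have ov : ∀ w ∈ W, B w v = 0 := mem_perp.1 (mem_perp_span.2 (by
    rintro _ (rfl | rfl | rfl)
    exacts [m.o₁, m.o₂, m.o₃]))
  have fx : ∀ n : S, x n = 0 → y n = 0 → z n = 0 → ∀ w ∈ W, n.1 w = w := fun n h1 h2 h4 w hw => by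
    induction hw using Submodule.span_induction with
    | mem w hw =>
      rcases hw with rfl | rfl | rfl
      · exact m.g₁ n
      · rw [m.g₂, h1, zero_smul, add_zero]
      · rw [m.g₃, h2, h4, zero_smul, zero_smul, add_zero, add_zero]
    | zero => exact map_zero _
    | add a b _ _ ha hb => rw [map_add, ha, hb]
    | smul c a _ ha => rw [map_smul, ha]
  let A : S → V := fun n => a₁ n • e₁ + a₂ n • e₂ + a₃ n • e₃
  have AW : ∀ n, A n ∈ W := fun n =>
    add_mem (add_mem (W.smul_mem _ (Submodule.subset_span (by simp)))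
      (W.smul_mem _ (Submodule.subset_span (by simp))))
      (W.smul_mem _ (Submodule.subset_span (by simp)))
  have Av : ∀ n : S, n.1 v = v + A n := fun n => by rw [m.gv, add_assoc, add_assoc, ← add_assoc (a₁ n • e₁)]
  have ex : ∀ n : S, x n = 0 → y n = 0 → z n = 0 → ∀ u, ∃ w ∈ W, n.1 u = u - B (A n) u • v + w :=
    fun n h1 h2 h4 => exists_w st.herm h7 h3 m.ti m.vv ov (m.le n.2) (fx n h1 h2 h4) (AW n) (Av n)
  have key : ∀ (g : S) (a : V) (c : E), a ∈ W → c + σ c = 0 →
      (∀ u, g.1 u = u + (c * B a u) • a) → a = 0 ∨ c = 0 := fun g a c ha hc e => by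
    by_contra hne
    push Not at hne
    refine nt ⟨a, c, m.ti a ha a ha, hc, hne.1, hne.2, ?_⟩
    have : tv B a c (m.ti a ha a ha) hc = g.1 := LinearEquiv.ext fun u => (e u).symm
    rw [this]
    exact g.2
  refine ⟨c2, fun g h => (c3 g h).2, fun g h => (c3 g h).1, fun g h => (cv g h).1,
    fun g h => (cv g h).2.1, fun g h => (cv g h).2.2, m.sur, m.eA, fun h2 n h1 h4 h5 => ?_,
    fun n n' h1 h2 h4 h5 h6 h8 hne l l1 l2 l3 => ?_⟩
  · refine li _ _ _ ((key (n * n) (A n) (-1) (AW n) (by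
      rw [map_neg, map_one]; linear_combination -h2) fun u => ?_).resolve_right (by simp))
    obtain ⟨w, hw, e⟩ := ex n h1 h4 h5 u
    rw [mu, e, map_add, map_sub, map_smul, e, Av, fx n h1 h4 h5 w hw]
    linear_combination (norm := module) h2 • (w - B (A n) u • v)
  · have eA : A n' = l • A n := by
      simp only [A, l1, l2, l3, smul_add, mul_smul]
    have k : ∀ u, n.1 (n'.1 u) = n'.1 (n.1 u) + ((l - σ l) * B (A n) u) • A n := fun u => by
      obtain ⟨w, hw, e⟩ := ex n h1 h2 h4 u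
      obtain ⟨w', hw', e'⟩ := ex n' h5 h6 h8 u
      conv_lhs => rw [e', map_add, map_sub, map_smul, e, Av, fx n h1 h2 h4 w' hw']
      conv_rhs => rw [e, map_add, map_sub, map_smul, e', Av, fx n' h5 h6 h8 w hw]
      rw [eA, smul_left]
      module
    have := key (n * n' * (n' * n)⁻¹) (A n) (l - σ l) (AW n) (by
      rw [map_sub, st.herm.inv.invol]; ring) fun u => by
        obtain ⟨u, rfl⟩ := (n' * n).1.surjective u
        rw [← mu, inv_mul_cancel_right, mu, k, mu]
        congr 3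
        rw [← m.le (n' * n).2 (A n) u, mu, mu, fx n h1 h2 h4 _ (AW n), fx n' h5 h6 h8 _ (AW n)]
    exact (sub_eq_zero.1 (this.resolve_left fun c => hne (li _ _ _ c))).symm

end Cfsg.Agent.H33.UgTvk
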