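import Mathlib
import Cfsg.Agent.H97.JmDefs

/-!
# Fixed points of an element of prime order on a normalised subgroup
-/

set_option autoImplicit false

namespace Cfsg.Agent.H97.JM

open Subgroup

universe u

theorem pFIX : FIX.{u} := by
  intro G _ _ R r x hr hx hn
  haveI := Fact.mk hr
  have hl : zpowers x ≤ normalizer (R : Set G) := zpowers_le.2 hn
  letI : MulAction (zpowers x) R :=
    { smul := fun g a => ⟨g * a * g⁻¹, (mem_normalizer_iff.1 (hl g.2) a).1 a.2⟩
      one_smul := fun a => Subtype.ext (by show (1 : G) * a * 1⁻¹ = a; group)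
      mul_smul := fun g h a => Subtype.ext (by
        show (g : G) * h * a * ((g : G) * h)⁻¹ = g * (h * a * (h : G)⁻¹) * (g : G)⁻¹
        group) }
  have hp : IsPGroup r (zpowers x) := IsPGroup.of_card (n := 1) (by
    rw [Nat.card_zpowers, hx, pow_one])
  have h1 := hp.card_modEq_card_fixedPoints R
  have h2 : Nat.card (MulAction.fixedPoints (zpowers x) R) =
      Nat.card ↥(R ⊓ centralizer ({x} : Set G)) := by
    refine Nat.card_congr ⟨fun a => ⟨a.1.1, a.1.2, mem_centralizer_singleton_iff.2 ?_⟩,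
      fun a => ⟨⟨a.1, a.2.1⟩, fun g => Subtype.ext ?_⟩, fun _ => rfl, fun _ => rfl⟩
    · have := congrArg Subtype.val (a.2 ⟨x, mem_zpowers x⟩)
      exact (mul_inv_eq_iff_eq_mul.1 this).symm
    · obtain ⟨g, n, rfl⟩ := g
      have c : Commute (a : G) x := mem_centralizer_singleton_iff.1 a.2.2
      exact mul_inv_eq_iff_eq_mul.2 (c.zpow_right n).eq.symm
  rw [← h2]
  exact h1

end Cfsg.Agent.H97.JM
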