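import Mathlib
import Cfsg.Agent.H45.OnDefs

/-!
# Stabilizers of even index give abelian 2-subgroups on the other side
-/

set_option autoImplicit false

namespace Cfsg.Agent.H33.OnP1

open Cfsg.Agent.H45.On

universe u v

theorem p1 (hG : GrowStmt.{u}) (hS : SyStmt.{u}) : P1Stmt.{u, v} := by
  intro G Ω _ _ _ _ S T h2 h3 x y M M' hM hM' hxy hev B hB hp b' hb' b hb
  obtain ⟨Q, -, hQ⟩ := (hS (St M y) ⊥ bot_le IsPGroup.of_bot).1
  have c : Cm B (St M y) := fun a ha m hm => (h3 x y M M' hM hM' hxy m hm a (hB ha)).symm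
  have fy : ∀ a ∈ B, a • y = y := fun a ha => S.fx hM' a (hB ha).1
  obtain ⟨g, -, hg, -, he⟩ := hG M (MulAction.stabilizer G y) B Q hp fy
    (fun a ha => h2 x y M M' a hM hM' (hB ha).1 (hB ha).2) c hQ hev
  have ce : ∀ a ∈ B, ∀ a' ∈ B, Commute a (a'⁻¹ * (g * a' * g⁻¹)) := fun a ha a' ha' =>
    c a ha _ (hQ.1 (he a' ha'))
  by_cases h1 : b' = 1
  · rw [h1, one_mul, mul_one]
  have k1 : b' • g • y = g • y := (T.cn (S.conj g hM') (cj_mem (hB hb').1)
    (fun e => h1 (by simpa using e)) (by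
      have := ((Commute.refl b').mul_right (ce b' hb' b' hb')).eq
      rwa [mul_inv_cancel_left] at this)).2
  have k2 : (g * b * g⁻¹) • y = y := by
    have e : (b⁻¹ * (g * b * g⁻¹)) • y = y := (hQ.1 (he b hb)).2
    rw [← mul_inv_cancel_left b (g * b * g⁻¹), mul_smul, e, fy b hb]
  have k3 : Commute b' (g * b * g⁻¹) := h3 y (g • y) M' (cj g M') hM' (S.conj g hM')
    (fun e => hg e.symm) b' ⟨(hB hb').1, k1⟩ _ ⟨cj_mem (hB hb).1, k2⟩
  have := (k3.mul_right (ce b' hb' b hb).inv_right).eq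
  rwa [mul_inv_rev, inv_inv, mul_inv_cancel_left] at this

end Cfsg.Agent.H33.OnP1
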