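import Cfsg.Agent.H33.QExtK

/-! Construction of self-adjoint square roots compatible with given isometries. -/

set_option autoImplicit false

namespace Cfsg.Agent.H33.QExt

open Cfsg.Agent.H30 Cfsg.Agent.H28 QuadraticMap Module

variable {F V : Type*} [Field F] [AddCommGroup V] [Module F V] {Q : QuadraticForm F V} {δ ε : F}
  {S : Set (O Q)} {U W M : Submodule F V} {J J' : End F V}

/-- `J` is a self-adjoint square root of `δ` on `W`, commuting with `S` up to the factor `ε`. -/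
structure JOn (Q : QuadraticForm F V) (δ : F) (S : Set (O Q)) (ε : F) (W : Submodule F V)
    (J : End F V) : Prop where
  mem : ∀ v ∈ W, J v ∈ W
  sq : ∀ v ∈ W, J (J v) = δ • v
  adj : ∀ u ∈ W, ∀ v ∈ W, polar Q (J u) v = polar Q u (J v)
  comm : ∀ g ∈ S, ∀ v ∈ W, g.1 (J v) = ε • J (g.1 v)

theorem JOn.isJ (h : JOn Q δ S ε ⊤ J) : IsJ Q δ J :=
  ⟨fun v => h.sq v trivial, fun u v => h.adj u trivial v trivial⟩

theorem jOn_bot : JOn Q δ S ε ⊥ 0 := ⟨by simp, by simp, by simp, by simp⟩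

/-- The operator on a plane. -/
noncomputable def plJ (Q : QuadraticForm F V) (u v : V) (a b : F) : End F V :=
  ((2 * Q u)⁻¹ • polarBilin Q u).smulRight (a • u + (b * Q u) • v) +
    ((2 * Q v)⁻¹ • polarBilin Q v).smulRight ((b * Q v) • u - a • v)

theorem plJ_left (h2 : (2 : F) ≠ 0) {u v : V} (hu : Q u ≠ 0) (huv : polar Q u v = 0) (a b : F) :
    plJ Q u v a b u = a • u + (b * Q u) • v := by
  simp [plJ, polar_self', polar_comm Q v u, huv, -mul_inv_rev,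
    inv_mul_cancel₀ (mul_ne_zero h2 hu)]

theorem plJ_right (h2 : (2 : F) ≠ 0) {u v : V} (hv : Q v ≠ 0) (huv : polar Q u v = 0) (a b : F) :
    plJ Q u v a b v = (b * Q v) • u - a • v := by
  simp [plJ, polar_self', huv, -mul_inv_rev, inv_mul_cancel₀ (mul_ne_zero h2 hv)]

theorem mem_plane {u v x : V} : x ∈ (F ∙ u) ⊔ (F ∙ v) ↔ ∃ a b : F, a • u + b • v = x := by
  rw [← Submodule.span_insert, Submodule.mem_span_pair]

theorem comb_mem_plane (u v : V) (a b : F) : a • u + b • v ∈ (F ∙ u) ⊔ (F ∙ v) :=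
  mem_plane.2 ⟨a, b, rfl⟩

theorem ndOn_plane (h2 : (2 : F) ≠ 0) {u v : V} (hu : Q u ≠ 0) (hv : Q v ≠ 0)
    (huv : polar Q u v = 0) : NondegOn Q ((F ∙ u) ⊔ (F ∙ v)) :=
  ndOn_sup (ndOn_span h2 hu) (ndOn_span h2 hv)
    ((Submodule.span_singleton_le_iff_mem _ _).2 (mem_perp_singleton.2 huv))

theorem jOn_plane (h2 : (2 : F) ≠ 0) {u v : V} (hu : Q u ≠ 0) (hv : Q v ≠ 0)
    (huv : polar Q u v = 0) {a b : F} (hab : a * a + Q u * Q v * (b * b) = δ)
    (hS : ∀ g ∈ S, g.1 (plJ Q u v a b u) = ε • plJ Q u v a b (g.1 u) ∧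
      g.1 (plJ Q u v a b v) = ε • plJ Q u v a b (g.1 v)) :
    JOn Q δ S ε ((F ∙ u) ⊔ (F ∙ v)) (plJ Q u v a b) := by
  have h1 := plJ_left h2 hu huv a b
  have h3 := plJ_right h2 hv huv a b
  refine ⟨fun x hx => ?_, fun x hx => ?_, fun x hx y hy => ?_, fun g hg x hx => ?_⟩ <;>
    obtain ⟨s, t, rfl⟩ := mem_plane.1 hx
  · convert comb_mem_plane u v (s * a + t * (b * Q v)) (s * (b * Q u) - t * a) using 1
    simp only [map_add, map_smul, h1, h3]
    module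
  · simp only [map_add, map_smul, map_sub, h1, h3, ← hab]
    module
  · obtain ⟨s', t', rfl⟩ := mem_plane.1 hy
    simp only [map_add, map_smul, h1, h3, polar_add_left, polar_add_right, polar_sub_left,
      polar_sub_right, polar_smul_left', polar_smul_right', polar_self', huv, polar_comm Q v u]
    ring
  · simp only [map_add, map_smul, (hS g hg).1, (hS g hg).2]
    module

theorem exists_ab [Finite F] (h2 : (2 : F) ≠ 0) {c : F} (hc : c ≠ 0) (δ : F) :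
    ∃ a b : F, a * a + c * (b * b) = δ := by
  have := Fintype.ofFinite F
  obtain ⟨a, b, h⟩ := FiniteField.exists_root_sum_quadratic (R := F)
    (f := Polynomial.X ^ 2) (g := Polynomial.C c * Polynomial.X ^ 2 - Polynomial.C δ)
    (by simp) (by
      rw [Polynomial.degree_sub_C (by simp [hc])]
      simp [hc]) (Nat.odd_iff.1 (two_ne_zero_iff_odd_card.1 h2))
  exact ⟨a, b, by simp at h; linear_combination h⟩

variable [FiniteDimensional F V]

theorem JOn.even (hδ : ¬ IsSquare δ) (h : JOn Q δ S ε W J) : Even (finrank F W) := by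
  by_contra h1
  let f : W →ₗ[F] W := J.restrict h.mem
  have h2 : f * f = δ • (1 : W →ₗ[F] W) :=
    LinearMap.ext fun v => Subtype.ext ((h.sq v v.2).trans (by simp))
  have h3 := congrArg LinearMap.det h2
  obtain ⟨k, hk⟩ := Nat.not_even_iff_odd.1 h1
  rw [map_mul, LinearMap.det_smul, map_one, mul_one, hk] at h3
  exact hδ (isSquare_of_mul_of_isSquare (pow_ne_zero (2 * k) (ne_zero_of_nsq hδ))
    ⟨δ ^ k, by ring⟩ ⟨_, by rw [h3]; ring⟩)

theorem JOn.glue (hU : NondegOn Q U) (hW : W ≤ perp Q U) (hSU : ∀ g ∈ S, Inv g U)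
    (hSW : ∀ g ∈ S, Inv g W) (h : JOn Q δ S ε U J) (h' : JOn Q δ S ε W J') :
    ∃ J'', JOn Q δ S ε (U ⊔ W) J'' ∧ (∀ u ∈ U, J'' u = J u) ∧ ∀ w ∈ W, J'' w = J' w := by
  obtain ⟨T, h1, h3⟩ : ∃ T : End F V, (∀ u ∈ U, T u = J u) ∧ ∀ w ∈ W, T w = J' w :=
    ⟨LinearMap.ofIsCompl hU.isCompl (J ∘ₗ U.subtype) (J' ∘ₗ (perp Q U).subtype),
      fun u hu => LinearMap.ofIsCompl_apply_left hU.isCompl ⟨u, hu⟩,
      fun w hw => LinearMap.ofIsCompl_apply_right hU.isCompl ⟨w, hW hw⟩⟩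
  have h4 : ∀ u ∈ U, ∀ w ∈ W, polar Q u w = 0 := fun u hu w hw => mem_perp.1 (hW hw) u hu
  have h5 : ∀ u ∈ U, ∀ w ∈ W, polar Q w u = 0 := fun u hu w hw => mem_perp'.1 (hW hw) u hu
  refine ⟨T, ⟨fun x hx => ?_, fun x hx => ?_, fun x hx y hy => ?_, fun g hg x hx => ?_⟩, h1, h3⟩ <;>
    obtain ⟨u, hu, w, hw, rfl⟩ := Submodule.mem_sup.1 hx
  · rw [map_add, h1 u hu, h3 w hw]
    exact Submodule.add_mem_sup (h.mem u hu) (h'.mem w hw)
  · rw [map_add, h1 u hu, h3 w hw, map_add, h1 _ (h.mem u hu), h3 _ (h'.mem w hw), h.sq u hu,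
      h'.sq w hw, smul_add]
  · obtain ⟨u', hu', w', hw', rfl⟩ := Submodule.mem_sup.1 hy
    simp only [map_add, h1 u hu, h3 w hw, h1 u' hu', h3 w' hw', polar_add_left, polar_add_right,
      h.adj u hu u' hu', h'.adj w hw w' hw', h4 _ (h.mem u hu) w' hw', h5 u' hu' _ (h'.mem w hw),
      h4 u hu _ (h'.mem w' hw'), h5 _ (h.mem u' hu') w hw]
  · simp only [map_add, h1 u hu, h3 w hw, h1 _ (hSU g hg u hu), h3 _ (hSW g hg w hw),
      h.comm g hg u hu, h'.comm g hg w hw, smul_add]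

theorem exists_jOn (hδ : ¬ IsSquare δ) {M₀ : Submodule F V}
    (step : ∀ M ≤ M₀, NondegOn Q M → (∀ g ∈ S, Inv g M) → Even (finrank F M) → M ≠ ⊥ →
      ∃ U ≤ M, U ≠ ⊥ ∧ NondegOn Q U ∧ (∀ g ∈ S, Inv g U) ∧ ∃ J, JOn Q δ S ε U J)
    (hM₀ : M ≤ M₀) (hM : NondegOn Q M) (hS : ∀ g ∈ S, Inv g M) (he : Even (finrank F M)) :
    ∃ J, JOn Q δ S ε M J := by
  induction hn : finrank F M using Nat.strong_induction_on generalizing M with
  | _ n ih =>
    by_cases h0 : M = ⊥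
    · exact ⟨0, h0 ▸ jOn_bot⟩
    obtain ⟨U, h1, h2, h3, h4, J, h5⟩ := step M hM₀ hM hS (hn ▸ he) h0
    have h6 := finrank_sup_perp h3 (inf_le_right (a := M))
    rw [sup_inf_perp h3 h1] at h6
    have h7 : 0 < finrank F U := Submodule.one_le_finrank_iff.2 h2
    have h8 : ∀ g ∈ S, Inv g (M ⊓ perp Q U) := fun g hg => (hS g hg).inf (h4 g hg).perp
    obtain ⟨J', h9⟩ := ih _ (by omega) (inf_le_left.trans hM₀) (ndOn_inf_perp h3 hM h1) h8
      (by have := h5.even hδ; rw [Nat.even_iff] at *; omega) rfl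
    obtain ⟨T, h10, -⟩ := h5.glue h3 inf_le_right h4 h8 h9
    exact ⟨T, sup_inf_perp h3 h1 ▸ h10⟩

variable [Finite F]

theorem step_scalar (h2 : (2 : F) ≠ 0) (hM : NondegOn Q M) (he : Even (finrank F M)) (h0 : M ≠ ⊥)
    (hS : ∀ g ∈ S, ∃ c : F, ∀ v ∈ M, g.1 v = c • v) :
    ∃ U ≤ M, U ≠ ⊥ ∧ NondegOn Q U ∧ (∀ g ∈ S, Inv g U) ∧ ∃ J, JOn Q δ S 1 U J := by
  obtain ⟨u, hu, hu0⟩ := hM.exists_Q_ne_zero h0
  have h1 : (F ∙ u) ≤ M := (Submodule.span_singleton_le_iff_mem _ _).2 hu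
  have h3 := finrank_sup_perp (ndOn_span h2 hu0) (inf_le_right (a := M))
  rw [sup_inf_perp (ndOn_span h2 hu0) h1, finrank_span_singleton (ne_zero_of_Q_ne_zero hu0)] at h3
  obtain ⟨v, hv, hv0⟩ := (ndOn_inf_perp (ndOn_span h2 hu0) hM h1).exists_Q_ne_zero
    (ne_bot_of_finrank_pos (by rw [Nat.even_iff] at he; omega))
  have huv : polar Q u v = 0 := mem_perp_singleton.1 hv.2
  obtain ⟨a, b, hab⟩ := exists_ab h2 (mul_ne_zero hu0 hv0) δ
  have h4 : (F ∙ u) ⊔ (F ∙ v) ≤ M := sup_le h1 ((Submodule.span_singleton_le_iff_mem _ _).2 hv.1)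
  refine ⟨_, h4, fun h => ne_zero_of_Q_ne_zero hu0 ?_, ndOn_plane h2 hu0 hv0 huv,
    fun g hg x hx => ?_, _, jOn_plane h2 hu0 hv0 huv hab fun g hg => ?_⟩
  · exact (Submodule.eq_bot_iff _).1 h u
      (Submodule.mem_sup_left (Submodule.mem_span_singleton_self u))
  · obtain ⟨c, hc⟩ := hS g hg
    rw [hc x (h4 hx)]
    exact Submodule.smul_mem _ _ hx
  · obtain ⟨c, hc⟩ := hS g hg
    simp only [plJ_left h2 hu0 huv, plJ_right h2 hv0 huv, map_add, map_sub, map_smul, hc u hu,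
      hc v hv.1]
    constructor <;> module

theorem exists_jOn_scalar (h2 : (2 : F) ≠ 0) (hδ : ¬ IsSquare δ) (hM : NondegOn Q M)
    (he : Even (finrank F M)) (hS : ∀ g ∈ S, ∃ c : F, ∀ v ∈ M, g.1 v = c • v) :
    ∃ J, JOn Q δ S 1 M J :=
  exists_jOn hδ (M₀ := M) (fun _ hN h1 _ h3 h4 => step_scalar h2 h1 h3 h4 fun g hg =>
    (hS g hg).imp fun _ hc v hv => hc v (hN hv)) le_rfl hM (fun g hg v hv => by
      obtain ⟨c, hc⟩ := hS g hg
      rw [hc v hv]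
      exact M.smul_mem _ hv) he

/-- `g` normalises `F[J]`. -/
def NJ (J : End F V) (g : O Q) : Prop :=
  (∀ v, g.1 (J v) = J (g.1 v)) ∨ ∀ v, g.1 (J v) = -J (g.1 v)

/-- The conjugate of `J`. -/
noncomputable def cJ (s : O Q) (J : End F V) : End F V :=
  (s.1 : V →ₗ[F] V) ∘ₗ J ∘ₗ ((s⁻¹).1 : V →ₗ[F] V)

omit [FiniteDimensional F V] [Finite F] in
theorem cJ_apply (s : O Q) (J : End F V) (v : V) : cJ s J v = s.1 (J ((s⁻¹).1 v)) := rfl

theorem exists_two_sq_one (h2 : (2 : F) ≠ 0) (hδ : ¬ IsSquare δ)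
    (hQ : (polarBilin Q).Nondegenerate) (he : Even (finrank F V)) {g : O Q} (hg : g * g = 1)
    (h1 : g ≠ 1) (hd : dickson hQ g = 1) :
    ∃ J v, IsJ Q δ J ∧ Q v ≠ 0 ∧ NJ J g ∧ NJ (cJ (refl Q v) J) g := by
  obtain ⟨hC, hM⟩ := ndOn_fix_mov hQ (disjoint_invol h2 hg)
  rw [dickson_apply, neg_one_pow_eq_one_iff_even (by decide)] at hd
  have h3 := finrank_movSp_add_finrank_fixSp g
  obtain ⟨J₁, h4⟩ := exists_jOn_scalar (S := {g}) h2 hδ hM hd (by
    rintro _ rfl; exact ⟨-1, fun v hv => by rw [neg_of_mem_movSp hg hv, neg_one_smul]⟩)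
  obtain ⟨J₂, h5⟩ := exists_jOn_scalar (S := {g}) h2 hδ hC
    (by rw [Nat.even_iff] at *; omega) (by
    rintro _ rfl; exact ⟨1, fun v hv => by rw [mem_fixSp.1 hv, one_smul]⟩)
  obtain ⟨J, h6, -⟩ := h4.glue hM (perp_movSp hQ g).ge (by rintro _ rfl; exact inv_movSp _)
    (by rintro _ rfl; exact inv_of_le_fixSp le_rfl) h5
  rw [← perp_movSp hQ g, hM.isCompl.sup_eq_top] at h6
  obtain ⟨v, hv, hv0⟩ := hM.exists_Q_ne_zero (ne_bot_of_finrank_pos (finrank_movSp_pos h1))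
  have h7 : ∀ x, g.1 (J x) = J (g.1 x) := fun x => by simpa using h6.comm g rfl x trivial
  have h8 : g * refl Q v = refl Q v * g := by rw [mul_refl, neg_of_mem_movSp hg hv, refl_neg]
  have h9 : ∀ x, g.1 ((refl Q v).1 x) = (refl Q v).1 (g.1 x) := fun x => by
    rw [← O_mul_apply, h8, O_mul_apply]
  exact ⟨J, v, h6.isJ, hv0, Or.inl h7, Or.inl fun x => by
    rw [cJ_apply, cJ_apply, refl_inv, h9, h7, h9]⟩

omit [FiniteDimensional F V] in
theorem step_four (h2 : (2 : F) ≠ 0) {g : O Q} (hg : ∀ v, g.1 (g.1 v) = -v) {e : V}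
    (he : Q e ≠ 0) : ∃ a b : F,
      JOn Q δ {g} (-1) ((F ∙ e) ⊔ (F ∙ g.1 e)) (plJ Q e (g.1 e) a b) := by
  have h1 : Q (g.1 e) ≠ 0 := by rwa [O_map]
  have h3 := polar_four h2 (hg e)
  obtain ⟨a, b, hab⟩ := exists_ab h2 (mul_ne_zero he h1) δ
  refine ⟨a, b, jOn_plane h2 he h1 h3 hab ?_⟩
  rintro _ rfl
  simp only [plJ_left h2 he h3, plJ_right h2 h1 h3, map_add, map_sub, map_smul, map_neg, hg, O_map]
  constructor <;> module

omit [FiniteDimensional F V] [Finite F] in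
theorem inv_plane {g : O Q} (hg : ∀ v, g.1 (g.1 v) = -v) (e : V) :
    Inv g ((F ∙ e) ⊔ (F ∙ g.1 e)) := by
  simpa using inv_sup_four (U := ⊥) (g := g) (fun v hv => by simpa using hv) (hg e)

theorem exists_two_sq_neg (h2 : (2 : F) ≠ 0) (hδ : ¬ IsSquare δ)
    (hQ : (polarBilin Q).Nondegenerate) (he : Even (finrank F V)) (h0 : 0 < finrank F V)
    {g : O Q} (hg : g * g = negOne Q) :
    ∃ J v, IsJ Q δ J ∧ Q v ≠ 0 ∧ NJ J g ∧ NJ (cJ (refl Q v) J) g := by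
  replace hg : ∀ v, g.1 (g.1 v) = -v := fun v => by rw [← O_mul_apply, hg, negOne_apply]
  obtain ⟨e, -, he0⟩ := (nondegOn_top hQ).exists_Q_ne_zero
    (ne_bot_of_finrank_pos (by rwa [finrank_top]))
  have h1 : Q (g.1 e) ≠ 0 := by rwa [O_map]
  have h3 := polar_four h2 (hg e)
  obtain ⟨a, b, h4⟩ := step_four (δ := δ) h2 hg he0
  have hP := ndOn_plane h2 he0 h1 h3
  have h5 := finrank_add_finrank_perp hQ ((F ∙ e) ⊔ (F ∙ g.1 e))
  have h6 : ∀ x ∈ ({g} : Set (O Q)), Inv x ((F ∙ e) ⊔ (F ∙ g.1 e)) := by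
    rintro _ rfl; exact inv_plane hg e
  obtain ⟨J₂, h7⟩ := exists_jOn (S := {g}) (ε := -1) hδ (M₀ := ⊤) (fun M _ hM hi _ h0 => by
      obtain ⟨u, hu, hu0⟩ := hM.exists_Q_ne_zero h0
      obtain ⟨a, b, h⟩ := step_four (δ := δ) h2 hg hu0
      refine ⟨_, sup_le ((Submodule.span_singleton_le_iff_mem _ _).2 hu)
        ((Submodule.span_singleton_le_iff_mem _ _).2 (hi g rfl u hu)),
        fun h => ne_zero_of_Q_ne_zero hu0 ((Submodule.eq_bot_iff _).1 h u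
          (Submodule.mem_sup_left (Submodule.mem_span_singleton_self u))),
        ndOn_plane h2 hu0 (by rwa [O_map]) (polar_four h2 (hg u)),
        by rintro _ rfl; exact inv_plane hg u, _, h⟩)
    le_top (hP.perp hQ) (fun x hx => (h6 x hx).perp)
    (by have := h4.even hδ; rw [Nat.even_iff] at *; omega)
  obtain ⟨J, h8, h9, h10⟩ := h4.glue hP le_rfl h6 (fun x hx => (h6 x hx).perp) h7
  rw [hP.isCompl.sup_eq_top] at h8
  have h11 : ∀ x, g.1 (J x) = -J (g.1 x) := fun x => by simpa using h8.comm g rfl x trivial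
  refine ⟨J, g.1 e, h8.isJ, h1, Or.inr h11, Or.inr fun x => ?_⟩
  obtain ⟨u, hu, w, hw, rfl⟩ := hP.orthDec.exists_add x
  obtain ⟨s, t, rfl⟩ := mem_plane.1 hu
  have h12 : ∀ w ∈ perp Q ((F ∙ e) ⊔ (F ∙ g.1 e)), (refl Q (g.1 e)).1 w = w := fun w hw =>
    refl_apply_of_orth (mem_perp'.1 hw _
      (Submodule.mem_sup_right (Submodule.mem_span_singleton_self _)))
  have h13 : J e = a • e + (b * Q e) • g.1 e := by
    rw [h9 e (Submodule.mem_sup_left (Submodule.mem_span_singleton_self _)), plJ_left h2 he0 h3]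
  have h14 : J (g.1 e) = (b * Q e) • e - a • g.1 e := by
    rw [h9 _ (Submodule.mem_sup_right (Submodule.mem_span_singleton_self _)), plJ_right h2 h1 h3,
      O_map]
  have h15 : ∀ w ∈ perp Q ((F ∙ e) ⊔ (F ∙ g.1 e)), J w ∈ perp Q ((F ∙ e) ⊔ (F ∙ g.1 e)) :=
    fun w hw => h10 w hw ▸ h7.mem w hw
  have h16 := (h6 g rfl).perp w hw
  simp only [cJ_apply, refl_inv, map_add, map_smul, map_neg, map_sub, h12 w hw, h12 _ (h15 w hw),
    h12 _ h16, h12 _ (h15 _ h16), refl_apply_of_orth h3, refl_apply_self h1, h13, h14, hg, h11 w]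
  module

end Cfsg.Agent.H33.QExt
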