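import Mathlib
import Cfsg.Agent.H28.EloTwo

/-! Self-adjoint square roots of a non-square: the quadratic extension structure. -/

set_option autoImplicit false

namespace Cfsg.Agent.H33.QExt

open Cfsg.Agent.H30 Cfsg.Agent.H28 QuadraticMap Module

variable {F V : Type*} [Field F] [AddCommGroup V] [Module F V]

/-- `J` is a self-adjoint square root of `δ`. -/
structure IsJ (Q : QuadraticForm F V) (δ : F) (J : End F V) : Prop where
  sq : ∀ v, J (J v) = δ • v
  adj : ∀ u v, polar Q (J u) v = polar Q u (J v)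

variable {Q : QuadraticForm F V} {δ : F} {J J' : End F V}

/-- The space with its structure over the quadratic extension. -/
def KSp (_h : IsJ Q δ J) : Type _ := V

instance (h : IsJ Q δ J) : AddCommGroup (KSp h) := inferInstanceAs (AddCommGroup V)
instance (h : IsJ Q δ J) : Module F (KSp h) := inferInstanceAs (Module F V)

/-- The action of the quadratic extension. -/
noncomputable def kHom (h : IsJ Q δ J) : QuadraticAlgebra F δ 0 →ₐ[F] End F V :=
  QuadraticAlgebra.lift ⟨J, LinearMap.ext fun v => by simp [h.sq]⟩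

noncomputable instance (h : IsJ Q δ J) : Module (QuadraticAlgebra F δ 0) (KSp h) :=
  Module.compHom V (kHom h).toRingHom

/-- The identity map. -/
def toK (h : IsJ Q δ J) : V ≃ₗ[F] KSp h := LinearEquiv.refl F V

theorem ksmul (h : IsJ Q δ J) (a : QuadraticAlgebra F δ 0) (v : V) :
    a • toK h v = toK h (a.re • v + a.im • J v) := rfl

instance (h : IsJ Q δ J) : IsScalarTower F (QuadraticAlgebra F δ 0) (KSp h) :=
  ⟨fun c a v => by
    obtain ⟨v, rfl⟩ := (toK h).surjective v
    rw [ksmul, ksmul, ← map_smul]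
    simp [smul_smul]⟩

/-- The form over the extension. -/
noncomputable def kB (h : IsJ Q δ J) (hδ : δ ≠ 0) :
    LinearMap.BilinMap (QuadraticAlgebra F δ 0) (KSp h) (QuadraticAlgebra F δ 0) :=
  LinearMap.mk₂ (QuadraticAlgebra F δ 0)
    (fun u v => ⟨polar Q ((toK h).symm u) ((toK h).symm v),
      δ⁻¹ * polar Q ((toK h).symm u) (J ((toK h).symm v))⟩)
    (fun u u' v => by ext <;> simp [polar_add_left, mul_add])
    (fun c u v => by
      obtain ⟨u, rfl⟩ := (toK h).surjective u
      obtain ⟨v, rfl⟩ := (toK h).surjective v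
      rw [ksmul]
      ext
      · simp [polar_add_left, polar_smul_left', h.adj]
        field_simp
      · simp [polar_add_left, polar_smul_left', h.adj, h.sq, polar_smul_right']
        field_simp)
    (fun u v v' => by ext <;> simp [polar_add_right, mul_add])
    (fun c u v => by
      obtain ⟨u, rfl⟩ := (toK h).surjective u
      obtain ⟨v, rfl⟩ := (toK h).surjective v
      rw [ksmul]
      ext
      · simp [polar_add_right, polar_smul_right']
        field_simp
      · simp [polar_add_right, h.sq, polar_smul_right']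
        field_simp)

theorem kB_apply (h : IsJ Q δ J) (hδ : δ ≠ 0) (u v : V) :
    kB h hδ (toK h u) (toK h v) = ⟨polar Q u v, δ⁻¹ * polar Q u (J v)⟩ := rfl

/-- The quadratic form over the extension. -/
noncomputable def kQ (h : IsJ Q δ J) (hδ : δ ≠ 0) (c : QuadraticAlgebra F δ 0) :
    QuadraticForm (QuadraticAlgebra F δ 0) (KSp h) := c • (kB h hδ).toQuadraticMap

theorem kQ_apply (h : IsJ Q δ J) (hδ : δ ≠ 0) (c : QuadraticAlgebra F δ 0) (v : V) :
    kQ h hδ c (toK h v) = c * ⟨2 * Q v, δ⁻¹ * polar Q v (J v)⟩ := by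
  rw [← polar_self']; rfl

theorem polar_kQ (h : IsJ Q δ J) (hδ : δ ≠ 0) (c : QuadraticAlgebra F δ 0) (u v : V) :
    polar (kQ h hδ c) (toK h u) (toK h v) = c * ⟨2 * polar Q u v, 2 * (δ⁻¹ * polar Q u (J v))⟩ := by
  rw [kQ, FunLike.coe_smul, QuadraticMap.polar_smul,
    LinearMap.BilinMap.polar_toQuadraticMap, kB_apply, kB_apply, smul_eq_mul]
  congr 1
  ext
  · simp [polar_comm Q v u, two_mul]
  · simp [polar_comm Q v (J u), h.adj, two_mul]

theorem ne_zero_of_nsq (hδ : ¬ IsSquare δ) : δ ≠ 0 := fun h => hδ (h ▸ IsSquare.zero)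

theorem fact_of_nsq (hδ : ¬ IsSquare δ) : Fact (∀ r : F, r ^ 2 ≠ δ + 0 * r) :=
  ⟨fun r h => hδ ⟨r, by rw [← _root_.sq, h, zero_mul, add_zero]⟩⟩

theorem finrank_qa (δ : F) : finrank F (QuadraticAlgebra F δ 0) = 2 :=
  QuadraticAlgebra.finrank_eq_two δ 0

section K

variable [hf : Fact (∀ r : F, r ^ 2 ≠ δ + 0 * r)]

theorem kQ_nd (h2 : (2 : F) ≠ 0) (hQ : (polarBilin Q).Nondegenerate) (h : IsJ Q δ J) (hδ : δ ≠ 0)
    {c : QuadraticAlgebra F δ 0} (hc : c ≠ 0) : (polarBilin (kQ h hδ c)).Nondegenerate :=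
  nondegenerate_of_forall fun x hx => by
    obtain ⟨x, rfl⟩ := (toK h).surjective x
    rw [eq_zero_of_polar hQ (x := x) fun y => ?_, map_zero]
    have := hx (toK h y)
    rw [polar_kQ, mul_eq_zero, or_iff_right hc] at this
    exact (mul_eq_zero.1 (congrArg QuadraticAlgebra.re this)).resolve_left h2

theorem finrank_ksp (h : IsJ Q δ J) (W : Submodule (QuadraticAlgebra F δ 0) (KSp h)) :
    finrank F (W.restrictScalars F) = 2 * finrank (QuadraticAlgebra F δ 0) W := by
  rw [← finrank_qa δ]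
  exact (finrank_mul_finrank F (QuadraticAlgebra F δ 0) W).symm

theorem finrank_ksp_top (h : IsJ Q δ J) :
    finrank F V = 2 * finrank (QuadraticAlgebra F δ 0) (KSp h) := by
  rw [← finrank_qa δ]
  exact (finrank_mul_finrank F (QuadraticAlgebra F δ 0) (KSp h)).symm

end K

variable [FiniteDimensional F V]

instance (h : IsJ Q δ J) : FiniteDimensional F (KSp h) := inferInstanceAs (FiniteDimensional F V)

instance (h : IsJ Q δ J) : Module.Finite (QuadraticAlgebra F δ 0) (KSp h) :=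
  Module.Finite.of_restrictScalars_finite F _ _

theorem IsJ.four_dvd (h2 : (2 : F) ≠ 0) (hQ : (polarBilin Q).Nondegenerate) (h : IsJ Q δ J)
    (hδ : ¬ IsSquare δ) {g : O Q} {r : ℕ} (hr : Odd r) (hg : g ^ r = 1)
    (hc : ∀ v, g.1 (J v) = J (g.1 v)) : 4 ∣ finrank F (movSp g) := by
  have := fact_of_nsq hδ
  have h0 := ne_zero_of_nsq hδ
  let φ : {g : O Q // ∀ v, g.1 (J v) = J (g.1 v)} → O (kQ h h0 1) := fun g =>
    ⟨{ toFun := fun v => toK h (g.1.1 ((toK h).symm v))
       invFun := fun v => toK h (g.1.1.symm ((toK h).symm v))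
       map_add' := fun u v => by simp
       map_smul' := fun a v => by
        obtain ⟨v, rfl⟩ := (toK h).surjective v
        rw [ksmul]
        simp [ksmul, g.2]
       left_inv := fun v => by simp
       right_inv := fun v => by simp }, fun v => by
        obtain ⟨v, rfl⟩ := (toK h).surjective v
        change kQ h h0 1 (toK h (g.1.1 v)) = _
        rw [kQ_apply, kQ_apply, O_map, ← g.2, O_polar]⟩
  have h1 : ∀ (k : ℕ) v, (φ ⟨g, hc⟩ ^ k).1 (toK h v) = toK h ((g ^ k).1 v) := fun k => by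
    induction k with
    | zero => exact fun _ => rfl
    | succ k ih => exact fun v => by rw [pow_succ', pow_succ', O_mul_apply, ih]; rfl
  have h3 : φ ⟨g, hc⟩ ^ r = 1 := O_ext fun v => by
    obtain ⟨v, rfl⟩ := (toK h).surjective v
    rw [h1, hg]; rfl
  have h4 := ((mem_kerDS _).1 (mem_kerDS_of_odd (kQ_nd h2 hQ h h0 one_ne_zero) hr h3)).1
  rw [dickson_apply, neg_one_pow_eq_one_iff_even (by decide)] at h4
  have h5 := finrank_ksp h (movSp (φ ⟨g, hc⟩))
  have h6 : finrank F ((movSp (φ ⟨g, hc⟩)).restrictScalars F) = finrank F (movSp g) := by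
    rw [← (toK h).finrank_map_eq (movSp g)]
    refine congrArg (fun W : Submodule F (KSp h) => finrank F W) (Submodule.ext fun v => ?_)
    simp only [Submodule.restrictScalars_mem, mem_movSp, Submodule.mem_map]
    constructor
    · rintro ⟨x, rfl⟩
      exact ⟨_, ⟨x, rfl⟩, rfl⟩
    · rintro ⟨_, ⟨x, rfl⟩, rfl⟩
      exact ⟨x, rfl⟩
  obtain ⟨k, hk⟩ := h4
  exact ⟨k, by omega⟩

variable [Fintype F]

theorem IsJ.exists_orth (h2 : (2 : F) ≠ 0) (hQ : (polarBilin Q).Nondegenerate) (h : IsJ Q δ J)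
    (hδ : ¬ IsSquare δ) (h4 : 4 ≤ finrank F V) : ∃ v, Q v ≠ 0 ∧ polar Q v (J v) = 0 := by
  have := fact_of_nsq hδ
  have h0 := ne_zero_of_nsq hδ
  have : Finite (QuadraticAlgebra F δ 0) := Module.finite_of_finite F
  obtain ⟨v, -, hv⟩ := (nondegOn_top (kQ_nd h2 hQ h h0 one_ne_zero)).exists_Q_eq
    (by rw [finrank_top]; have := finrank_ksp_top h; omega) 1
  obtain ⟨v, rfl⟩ := (toK h).surjective v
  rw [kQ_apply, one_mul] at hv
  have h1 : 2 * Q v = 1 := congrArg QuadraticAlgebra.re hv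
  have h3 : δ⁻¹ * polar Q v (J v) = 0 := congrArg QuadraticAlgebra.im hv
  exact ⟨v, fun h => by simp [h] at h1, (mul_eq_zero.1 h3).resolve_left (inv_ne_zero h0)⟩

theorem exists_psi_eq {K : Type*} [Field K] [Fintype K] (lam : K →+ F) :
    ∃ c : K, ∀ a, psi F (lam a) = psi K (c * a) := by
  classical
  have h1 : Function.Bijective (AddChar.mulShift (psi K)) := by
    rw [Fintype.bijective_iff_injective_and_card]
    exact ⟨AddChar.to_mulShift_inj_of_isPrimitive (psi_prim K), (AddChar.card_eq).symm⟩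
  obtain ⟨c, hc⟩ := h1.2 ((psi F).compAddMonoidHom lam)
  exact ⟨c, fun a => by
    have := DFunLike.congr_fun hc a
    simpa using this.symm⟩

theorem IsJ.exists_conj (h2 : (2 : F) ≠ 0) (hQ : (polarBilin Q).Nondegenerate) (h : IsJ Q δ J)
    (h' : IsJ Q δ J') (hδ : ¬ IsSquare δ) : ∃ g : O Q, ∀ v, g.1 (J v) = J' (g.1 v) := by
  have := fact_of_nsq hδ
  have h0 := ne_zero_of_nsq hδ
  have : Finite (QuadraticAlgebra F δ 0) := Module.finite_of_finite F
  have := Fintype.ofFinite (QuadraticAlgebra F δ 0)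
  obtain ⟨c, hc⟩ := exists_psi_eq (F := F) (K := QuadraticAlgebra F δ 0)
    { toFun := fun a => 2⁻¹ * a.re, map_zero' := by simp, map_add' := fun a b => by simp [mul_add] }
  have hc0 : c ≠ 0 := by
    rintro rfl
    have h1 := sum_psi F
    rw [Finset.sum_congr rfl (g := fun _ => (1 : ℂ)) fun a _ => by
      have := hc ⟨2 * a, 0⟩
      simpa [← mul_assoc, h2] using this] at h1
    simp at h1
  have key : ∀ {J : End F V} (h : IsJ Q δ J), gau (kQ h h0 c) = gau Q := fun h =>
    (finsum_eq_of_bijective (toK h) (toK h).bijective fun v => by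
      rw [kQ_apply, ← hc]
      simp [← mul_assoc, h2]).symm
  have hd : finrank (QuadraticAlgebra F δ 0) (KSp h) = finrank (QuadraticAlgebra F δ 0) (KSp h') := by
    have := finrank_ksp_top h
    have := finrank_ksp_top h'
    omega
  obtain ⟨e, he⟩ := iso_of_tpw (kQ_nd h2 hQ h h0 hc0) (kQ_nd h2 hQ h' h0 hc0) hd (by
    rw [tpw, tpw, key h, key h', hd])
  refine ⟨⟨((toK h).trans (e.restrictScalars F)).trans (toK h').symm, fun v => ?_⟩, fun v => ?_⟩
  · have h1 := he (toK h v)
    obtain ⟨w, hw⟩ := (toK h').surjective (e (toK h v))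
    change Q ((toK h').symm (e (toK h v))) = _
    rw [← hw] at h1 ⊢
    rw [kQ_apply, kQ_apply, mul_right_inj' hc0] at h1
    exact mul_left_cancel₀ h2 (congrArg QuadraticAlgebra.re h1)
  · change (toK h').symm (e (toK h (J v))) = J' ((toK h').symm (e (toK h v)))
    have h1 := e.map_smul QuadraticAlgebra.omega (toK h v)
    obtain ⟨w, hw⟩ := (toK h').surjective (e (toK h v))
    rw [← hw, ksmul, ksmul] at h1
    simp only [QuadraticAlgebra.omega_re, QuadraticAlgebra.omega_im, zero_smul, one_smul,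
      zero_add] at h1
    rw [h1, ← hw]
    simp

/-- An element of `SO` outside `Ω` commuting with `J`. -/
theorem IsJ.exists_spin (h2 : (2 : F) ≠ 0) (hQ : (polarBilin Q).Nondegenerate) (h : IsJ Q δ J)
    (hδ : ¬ IsSquare δ) (h4 : 4 ≤ finrank F V) : ∃ n : O Q, (∀ v, n.1 (J v) = J (n.1 v)) ∧
      dickson hQ n = 1 ∧ spinorNorm hQ n ≠ 1 := by
  obtain ⟨v, h1, h3⟩ := h.exists_orth h2 hQ hδ h4
  have h0 := ne_zero_of_nsq hδ
  have h5 : Q (J v) = δ * Q v := by
    apply mul_left_cancel₀ h2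
    rw [← polar_self', h.adj, h.sq, polar_smul_right', polar_self']; ring
  have h6 : Q (J v) ≠ 0 := h5 ▸ mul_ne_zero h0 h1
  refine ⟨refl Q v * refl Q (J v), fun x => ?_, ?_, ?_⟩
  · have h7 : polar Q (J v) v = 0 := by rw [polar_comm, h3]
    simp only [O_mul_apply, refl_apply, polar_sub_left, polar_smul_left', h7, map_sub, map_smul,
      h.adj x, h.sq, h5, polar_smul_right', mul_zero, sub_zero, smul_smul]
    match_scalars <;> field_simp <;> ring
  · rw [map_mul, dickson_refl hQ h1, dickson_refl hQ h6]; rfl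
  · rw [Ne, spinorNorm_refl_mul_refl_eq_one_iff hQ h1 h6, h5]
    exact fun h7 => hδ (isSquare_of_mul_of_isSquare (mul_ne_zero h1 h1) ⟨_, rfl⟩
      (by convert h7 using 1; ring))

/-- Conjugation inside `Ω`. -/
theorem IsJ.exists_conj_kerDS (h2 : (2 : F) ≠ 0) (hQ : (polarBilin Q).Nondegenerate)
    (h : IsJ Q δ J) (hδ : ¬ IsSquare δ) (h4 : 4 ≤ finrank F V) {g : O Q}
    (hg : ∀ v, g.1 (J v) = J' (g.1 v)) (hd : dickson hQ g = 1) :
    ∃ k ∈ kerDS hQ, ∀ v, k.1 (J v) = J' (k.1 v) := by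
  by_cases hs : spinorNorm hQ g = 1
  · exact ⟨g, ⟨hd, hs⟩, hg⟩
  obtain ⟨n, h1, h3, h5⟩ := h.exists_spin h2 hQ hδ h4
  refine ⟨g * n, (mem_kerDS hQ).2 ⟨by rw [map_mul, hd, h3, mul_one], ?_⟩,
    fun v => by rw [O_mul_apply, h1, hg, O_mul_apply]⟩
  obtain ⟨y, -, hy⟩ := (Nat.card_eq_two_iff' (1 : SqCl F)).1 (card_sqCl h2)
  rw [map_mul, hy _ hs, hy _ h5, sqCl_mul_self]

end Cfsg.Agent.H33.QExt
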