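import Cfsg.Agent.H33.QExtP
import Cfsg.Agent.H77.ElusExt

/-! Elements of prime order of `PΩ` and the normaliser of a quadratic extension field. -/

set_option autoImplicit false

namespace Cfsg.Agent.H33.QExt

open Cfsg.Agent.H30 Cfsg.Agent.H28 QuadraticMap Module
open scoped Matrix Pointwise

section Abs

variable {F V : Type*} [Field F] [AddCommGroup V] [Module F V] {Q : QuadraticForm F V} {δ : F}
  {J J' : End F V}

theorem NJ.conj {g k : O Q} (h : NJ J' g) (hk : ∀ v, k.1 (J v) = J' (k.1 v)) :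
    NJ J (k⁻¹ * g * k) := by
  have h1 : ∀ v, (k⁻¹).1 (J' v) = J ((k⁻¹).1 v) := fun v => by
    rw [O_inv_apply_eq, hk, O_apply_inv]
  exact h.imp (fun h v => by simp only [O_mul_apply, hk, h, h1])
    fun h v => by simp only [O_mul_apply, hk, h, h1, map_neg]

theorem NJ.comm_of_odd (h2 : (2 : F) ≠ 0) (hJ : IsJ Q δ J) (hδ : δ ≠ 0) {g : O Q} {r : ℕ}
    (hr : Odd r) (hg : g ^ r = 1) (h : NJ J g) : ∀ v, g.1 (J v) = J (g.1 v) := by
  rcases h with h | h
  · exact h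
  have h1 : ∀ (n : ℕ) v, (g ^ n).1 (J v) = (-1 : F) ^ n • J ((g ^ n).1 v) := fun n => by
    induction n with
    | zero => simp
    | succ n ih => intro v; rw [pow_succ', O_mul_apply, ih, map_smul, h, O_mul_apply]; module
  have h3 : ∀ v, J v = 0 := fun v => by
    have := h1 r v
    rw [hg, hr.neg_one_pow, O_one_apply, O_one_apply, neg_one_smul, eq_neg_iff_add_eq_zero,
      ← two_smul F] at this
    exact (smul_eq_zero.1 this).resolve_left h2
  intro v
  rw [h3, h3, map_zero]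

variable [FiniteDimensional F V] [Fintype F]

theorem conj_of_two (h2 : (2 : F) ≠ 0) (hδ : ¬ IsSquare δ) (hQ : (polarBilin Q).Nondegenerate)
    (hJ : IsJ Q δ J) (h4 : 4 ≤ finrank F V) {g : O Q}
    (h : ∃ J' v, IsJ Q δ J' ∧ Q v ≠ 0 ∧ NJ J' g ∧ NJ (cJ (refl Q v) J') g) :
    ∃ k ∈ kerDS hQ, NJ J (k⁻¹ * g * k) := by
  obtain ⟨J', v, h1, hv, h3, h5⟩ := h
  obtain ⟨k, hk⟩ := hJ.exists_conj h2 hQ h1 hδ
  rcases Int.units_eq_one_or (dickson hQ k) with h6 | h6
  · obtain ⟨k', h7, h8⟩ := hJ.exists_conj_kerDS h2 hQ hδ h4 hk h6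
    exact ⟨k', h7, h3.conj h8⟩
  · obtain ⟨k', h7, h8⟩ := hJ.exists_conj_kerDS (J' := cJ (refl Q v) J') (g := refl Q v * k)
      h2 hQ hδ h4 (fun x => by rw [cJ_apply, O_mul_apply, O_mul_apply, O_inv_apply, hk])
      (by rw [map_mul, h6, dickson_refl hQ hv]; rfl)
    exact ⟨k', h7, h5.conj h8⟩

theorem exists_not_four_dvd {p r : ℕ} [Fact p.Prime] [CharP F p] [hr : Fact r.Prime]
    (h2 : (2 : F) ≠ 0) (hδ : ¬ IsSquare δ) (hQ : (polarBilin Q).Nondegenerate)
    (hJ : IsJ Q δ J) (h4 : 4 ≤ finrank F V) (hr2 : r ≠ 2) {N : Subgroup (O Q)}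
    (hN : ∀ g, g ∈ N ↔ NJ J g) (hΩ : r ∣ N.relIndex (kerDS hQ)) :
    ∃ g : O Q, g ^ r = 1 ∧ ¬ 4 ∣ finrank F (movSp g) := by
  have := H77.finite_linearEquiv' (F := F) (V := V)
  by_cases hrp : r = p
  · subst hrp
    obtain ⟨e, f, h⟩ := exists_isHyp_of_three_le hQ (by omega)
    have hd := h.finrank_hperp
    obtain ⟨v, hv, hv0⟩ := (h.nondegOn_hperp hQ).exists_Q_ne_zero
      (ne_bot_of_finrank_pos (by omega))
    have hev : polar Q e v = 0 := by rw [polar_comm]; exact hv.1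
    have h1 : ∀ n : ℕ, eich Q e v ^ n = eich Q e ((n : F) • v) := fun n => by
      induction n with
      | zero => simp [eich_zero]
      | succ n ih =>
        rw [pow_succ, ih, eich_mul h.left (by rw [polar_smul_right', hev, mul_zero]) hev,
          Nat.cast_succ, add_smul, one_smul]
    refine ⟨eich Q e v, by rw [h1, CharP.cast_eq_zero, zero_smul, eich_zero], fun h3 => ?_⟩
    have h5 : 0 < finrank F (movSp (eich Q e v)) := finrank_movSp_pos fun h5 => by
      have := eich_apply_of_orth_left h.left hev (x := v) hv.1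
      rw [h5, O_one_apply, polar_self', eq_sub_iff_add_eq, add_eq_left, smul_eq_zero] at this
      rcases this with h6 | h6
      · exact mul_ne_zero h2 hv0 h6
      · have := h.pol
        rw [h6, polar_zero_left] at this
        exact zero_ne_one this
    have h6 : movSp (eich Q e v) ≤ (F ∙ e) ⊔ (F ∙ v) := fun y hy => by
      obtain ⟨x, rfl⟩ := mem_movSp.1 hy
      rw [eich_apply h.left hev]
      convert comb_mem_plane e v (-polar Q x v - Q v * polar Q x e) (polar Q x e) using 1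
      module
    have h7 := Submodule.finrank_mono h6
    have h8 := Submodule.finrank_add_le_finrank_add_finrank (F ∙ e) (F ∙ v)
    have h9 := finrank_span_le_card (R := F) ({e} : Set V)
    have h10 := finrank_span_le_card (R := F) ({v} : Set V)
    simp only [Set.toFinset_singleton, Finset.card_singleton] at h9 h10
    omega
  obtain ⟨i, hi⟩ : ∃ i, orderOf (Fintype.card F : ZMod r) = i := ⟨_, rfl⟩
  have h0 : 0 < i := hi ▸ orderOf_card_pos (F := F) hrp
  have hV : Even (finrank F V) := by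
    have := (show JOn Q δ ∅ 1 ⊤ J from ⟨by simp, fun v _ => hJ.sq v, fun u _ v _ => hJ.adj u v,
      by simp⟩).even hδ
    rwa [finrank_top] at this
  by_cases h5 : 4 ∣ i
  · exfalso
    obtain ⟨b, rfl⟩ := h5
    have := kerDS_normal hQ
    obtain ⟨P⟩ : Nonempty (Sylow r (kerDS hQ)) := inferInstance
    obtain ⟨J', h6, h7⟩ := exists_isJ_pgroup (b := 2 * b) h2 hδ (cast_ne_zero_of_ne hrp) (by omega)
      (by rw [hi]; ring) (even_two_mul b) hQ hV (P.2.map (kerDS hQ).subtype)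
    obtain ⟨k, hk⟩ := hJ.exists_conj h2 hQ h6 hδ
    refine ((MulAut.conjNormal k⁻¹ : MulAut (kerDS hQ)) • P).not_dvd_index (hΩ.trans (Subgroup.index_dvd_of_le ?_))
    rintro _ ⟨x, hx, rfl⟩
    rw [Subgroup.mem_subgroupOf, hN]
    simpa using NJ.conj (J := J) (Or.inl (h7 x.1 ⟨x, hx, rfl⟩)) hk
  have := CharP.of_ringHom_of_ne_zero (algebraMap F (AlgebraicClosure F)) p
    (Fact.out : p.Prime).ne_zero
  obtain ⟨⟨y, hy⟩, h6⟩ := exists_prime_orderOf_dvd_card' (G := kerDS hQ) r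
    (hΩ.trans (Subgroup.index_dvd_card _))
  obtain ⟨h7, h8⟩ := orderOf_eq_prime_iff.1 h6
  replace h7 : y ^ r = 1 := congrArg Subtype.val h7
  replace h8 : y ≠ 1 := fun h => h8 (Subtype.ext h)
  have hd := disjoint_fix_mov (cast_ne_zero_of_ne hrp) h7
  obtain ⟨-, hM⟩ := ndOn_fix_mov hQ hd
  obtain ⟨a, h9, h10⟩ := free_type_elt hr2 hi h0 h7 hM (inv_movSp y) hd
  obtain ⟨-, h11, -, h12⟩ := fix_of_mov hQ hM h9 h10 ((even_cc i).mul_right _)
  have h13 : 0 < a := Nat.pos_of_mul_pos_left (h9 ▸ finrank_movSp_pos h8)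
  have h14 := Nat.mul_le_mul_left (cc i) h13
  obtain ⟨s, hs⟩ := exists_rd (L := AlgebraicClosure F) hr2 hrp hi h0 1
  obtain ⟨g, h15, h16, -⟩ := exists_elt_of_rd hQ hr2 hi h0 hs (h14.trans h11) fun h => by
    obtain rfl : 1 = a := Nat.eq_of_mul_eq_mul_left (cc_pos h0) (le_antisymm h14 (h ▸ h11))
    exact h12 h
  refine ⟨g, h15, ?_⟩
  rw [h16, mul_one, cc]
  split_ifs with h
  · exact h5
  · rw [Nat.even_iff] at h
    omega

omit [FiniteDimensional F V] [Fintype F] in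
theorem finrank_movSp_conj (g k : O Q) :
    finrank F (movSp (k⁻¹ * g * k)) = finrank F (movSp g) := by
  rw [← k.1.finrank_map_eq]
  refine congrArg (fun W : Submodule F V => finrank F W) (Submodule.ext fun v => ?_)
  simp only [Submodule.mem_map, mem_movSp]
  constructor
  · rintro ⟨_, ⟨x, rfl⟩, rfl⟩
    exact ⟨k.1 x, by simp [O_mul_apply, O_apply_inv]⟩
  · rintro ⟨x, rfl⟩
    exact ⟨_, ⟨(k⁻¹).1 x, rfl⟩, by simp [O_mul_apply, O_apply_inv]⟩

theorem abs_iff {p r : ℕ} [Fact p.Prime] [CharP F p] [hr : Fact r.Prime]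
    (h2 : (2 : F) ≠ 0) (hδ : ¬ IsSquare δ) (hQ : (polarBilin Q).Nondegenerate)
    (hJ : IsJ Q δ J) (h4 : 4 ≤ finrank F V) {N : Subgroup (O Q)}
    (hN : ∀ g, g ∈ N ↔ NJ J g) (hΩ : r ∣ N.relIndex (kerDS hQ)) :
    (∀ g ∈ kerDS hQ, (g ^ r = 1 ∨ g ^ r = negOne Q) → g ≠ 1 → g ≠ negOne Q →
      ∃ k ∈ kerDS hQ, k⁻¹ * g * k ∈ N) ↔ r = 2 := by
  simp only [hN]
  refine ⟨fun H => by_contra fun hr2 => ?_, ?_⟩
  · have ho := hr.out.odd_of_ne_two hr2
    obtain ⟨g, h1, h3⟩ := exists_not_four_dvd h2 hδ hQ hJ h4 hr2 hN hΩ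
    have h5 : g ≠ 1 := by
      rintro rfl
      exact h3 (by
        rw [show movSp (1 : O Q) = ⊥ from eq_bot_iff.2 (by rintro _ ⟨v, rfl⟩; simp)]; simp)
    obtain ⟨k, -, hk⟩ := H g (mem_kerDS_of_odd hQ ho h1) (Or.inl h1) h5 fun h => h5 (by
      rwa [h, negOne_pow_odd ho, ← h] at h1)
    have h6 : (k⁻¹ * g * k) ^ r = 1 := by
      rw [← inv_inv k, inv_inv k⁻¹, conj_pow, h1]; simp
    exact h3 (finrank_movSp_conj g k ▸ hJ.four_dvd h2 hQ hδ ho h6
      (hk.comm_of_odd h2 hJ (ne_zero_of_nsq hδ) ho h6))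
  · rintro rfl g hg h1 h3 -
    have hV : Even (finrank F V) := by
      have := (show JOn Q δ ∅ 1 ⊤ J from ⟨by simp, fun v _ => hJ.sq v, fun u _ v _ => hJ.adj u v,
        by simp⟩).even hδ
      rwa [finrank_top] at this
    rw [_root_.sq] at h1
    refine conj_of_two h2 hδ hQ hJ h4 (h1.elim (fun h1 => ?_) fun h1 => ?_)
    · exact exists_two_sq_one h2 hδ hQ hV h1 h3 hg.1
    · exact exists_two_sq_neg h2 hδ hQ hV (by omega) h1

end Abs

theorem mat_iff {F : Type*} [Field F] [Fintype F] {p : ℕ} [Fact p.Prime] [CharP F p]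
    (hodd : Odd (Fintype.card F)) {ι : Type} [Fintype ι] [DecidableEq ι]
    {Q : QuadraticForm F (ι → F)} (hQ : (polarBilin Q).Nondegenerate) (h5 : 5 ≤ Fintype.card ι)
    (K : Subalgebra F (Matrix ι ι F)) (hK : Cfsg.Geo.IsFieldSubalgebra 2 K)
    (hKf : Cfsg.Geo.IsSelfAdjointFor (polar ⇑Q) K) (r : ℕ) [Fact r.Prime]
    (hΩ : r ∣ (Cfsg.Geo.subalgebraNormalizer K).relIndex (Cfsg.Geo.omegaGL ⇑Q)) :
    (∀ x ∈ Cfsg.Geo.omegaGL ⇑Q,
      (∃ z : F, ((x ^ r : GL ι F) : Matrix ι ι F) = z • (1 : Matrix ι ι F)) →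
      (∀ z : F, (x : Matrix ι ι F) ≠ z • (1 : Matrix ι ι F)) →
      ∃ g ∈ Cfsg.Geo.omegaGL ⇑Q, g⁻¹ * x * g ∈ Cfsg.Geo.subalgebraNormalizer K) ↔ r = 2 := by
  have h2 := two_ne_zero_iff_odd_card.2 hodd
  have : Nonempty ι := Fintype.card_pos_iff.1 (by omega)
  obtain ⟨δ, hδ⟩ := exists_not_isSquare h2
  obtain ⟨E, _, _, _, _, _, h1, h3, -, h4⟩ := H77.exists_ext_of_isFieldSubalgebra hK
  obtain ⟨ω, hω⟩ := H77.isSquare_algebraMap h1 δ
  let J : End F (ι → F) := (ω • 1 : End E (ι → F)).restrictScalars F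
  have hJ' : ∀ v, J v = ω • v := fun _ => rfl
  have hJ : IsJ Q δ J := ⟨fun v => by rw [hJ', hJ', smul_smul, ← hω, algebraMap_smul], fun u v => by
    obtain ⟨m, hm, h⟩ := h3 ω
    rw [hJ', hJ', h, h]
    exact hKf m hm u v⟩
  have hspan : ∀ a : E, ∃ x y : F, a = x • 1 + y • ω := fun a => by
    have h6 : LinearIndependent F ![(1 : E), ω] := LinearIndependent.pair_iff.2 fun x y h => by
      have hy : y = 0 := by
        by_contra hy
        refine hδ ⟨x / y, (algebraMap F E).injective ?_⟩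
        have h7 : ω = -algebraMap F E (x / y) := by
          rw [Algebra.smul_def, Algebra.smul_def, mul_one] at h
          have := (_root_.map_ne_zero (algebraMap F E)).2 hy
          rw [map_div₀]
          field_simp
          linear_combination h
        rw [hω, h7, map_mul, neg_mul_neg]
      exact ⟨by simpa [hy] using h, hy⟩
    have h7 := h6.span_eq_top_of_card_eq_finrank' (by rw [h1]; rfl)
    rw [Matrix.range_cons_cons_empty] at h7
    obtain ⟨x, y, h⟩ := Submodule.mem_span_pair.1 (h7 ▸ Submodule.mem_top (x := a))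
    exact ⟨x, y, h.symm⟩
  have hN : ∀ g : O Q, g ∈ (Cfsg.Geo.subalgebraNormalizer K).comap (toGL Q) ↔ NJ J g := fun g => by
    rw [Subgroup.mem_comap, h4]
    simp only [H77.Semi, Matrix.toLin'_apply, toGL_mulVec, NJ, hJ']
    constructor
    · intro h
      obtain ⟨b, hb⟩ := h ω
      obtain ⟨v, hv⟩ := exists_ne (0 : ι → F)
      have h6 : b * b = ω * ω := smul_left_injective E (O_apply_eq_zero.not.2 hv : g.1 v ≠ 0) (by
        beta_reduce
        rw [mul_smul, ← hb, ← hb, smul_smul, ← hω, algebraMap_smul, algebraMap_smul, map_smul])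
      rcases mul_self_eq_mul_self_iff.1 h6 with rfl | rfl
      · exact Or.inl hb
      · exact Or.inr fun v => by rw [hb, neg_smul]
    · rintro (h | h) a <;> obtain ⟨x, y, rfl⟩ := hspan a
      · exact ⟨x • 1 + y • ω, fun v => by simp [add_smul, h]⟩
      · exact ⟨x • 1 - y • ω, fun v => by simp [add_smul, sub_smul, h, sub_eq_add_neg]⟩
  have hexc : ¬ IsExc Q := not_isExc_of_two h2
  rw [omegaGL_eq_map_kerDS hQ hexc, ← Subgroup.relIndex_comap] at hΩ
  rw [← abs_iff h2 hδ hQ hJ (by rw [finrank_pi']; omega) hN hΩ, forall_omegaGL hQ h5]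
  refine forall₂_congr fun g _ => ?_
  rw [← map_pow, toGL_eq_smul_iff hQ, ← not_exists, toGL_eq_smul_iff hQ, not_or, and_imp,
    omegaGL_eq_map_kerDS hQ hexc]
  refine forall₃_congr fun _ _ _ => ⟨?_, fun ⟨k, hk, h⟩ => ⟨_, ⟨k, hk, rfl⟩, ?_⟩⟩
  · rintro ⟨_, ⟨k, hk, rfl⟩, h⟩
    exact ⟨k, hk, by rwa [Subgroup.mem_comap, map_mul, map_mul, map_inv]⟩
  · rwa [Subgroup.mem_comap, map_mul, map_mul, map_inv] at h

end Cfsg.Agent.H33.QExt
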