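import Cfsg.Agent.H33.QExtG

/-! Groups of odd prime power order commuting with a self-adjoint square root. -/

set_option autoImplicit false

namespace Cfsg.Agent.H33.QExt

open Cfsg.Agent.H30 Cfsg.Agent.H28 QuadraticMap Module Polynomial

section Poly

variable {F : Type*} [Field F] [Fintype F]

theorem isSquare_of_even {L : Type*} [Field L] [Finite L] [Algebra F L] (h2 : (2 : F) ≠ 0)
    (h : Even (finrank F L)) (z : F) : IsSquare (algebraMap F L z) := by
  have := Fintype.ofFinite L
  rcases eq_or_ne z 0 with rfl | hz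
  · simp
  have h1 : ringChar L ≠ 2 := ringChar_ne_two fun h => h2 ((algebraMap F L).injective (by
    rw [map_ofNat, h, map_zero]))
  rw [FiniteField.isSquare_iff h1 ((_root_.map_ne_zero _).mpr hz),
    Module.card_eq_pow_finrank (K := F)]
  obtain ⟨k, hk⟩ := h
  obtain ⟨j, hj⟩ := two_ne_zero_iff_odd_card.1 h2
  obtain ⟨t, ht⟩ := Nat.sub_dvd_pow_sub_pow (Fintype.card F ^ 2) 1 k
  rw [one_pow, ← pow_mul, two_mul, ← hk] at ht
  have h3 : Fintype.card F ^ 2 - 1 = (Fintype.card F - 1) * (j + 1) * 2 := by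
    rw [hj, show (2 * j + 1) ^ 2 = 2 * j * (j + 1) * 2 + 1 by ring]
    simp
  have h4 : 0 < Fintype.card F ^ finrank F L := pow_pos Fintype.card_pos _
  rw [show Fintype.card F ^ finrank F L / 2 = (Fintype.card F - 1) * ((j + 1) * t) by
    rw [h3, mul_right_comm, mul_assoc (Fintype.card F - 1)] at ht
    omega, pow_mul, ← map_pow, FiniteField.pow_card_sub_one_eq_one z hz, map_one, one_pow]

theorem exists_poly (h2 : (2 : F) ≠ 0) {δ : F} (hδ : ¬ IsSquare δ) {r b : ℕ} [hr : Fact r.Prime]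
    (hrF : (r : F) ≠ 0) (hb : 0 < b) (hi : orderOf (Fintype.card F : ZMod r) = 2 * b)
    (he : Even b) : ∃ j : F[X], cyclotomic r F ∣ j * j - C δ ∧
      cyclotomic r F ∣ j.comp (X ^ (r - 1)) - j := by
  let A := AdjoinRoot (cyclotomic r F)
  let ζ : A := AdjoinRoot.root _
  have : Module.Finite F A := (AdjoinRoot.powerBasis' (cyclotomic.monic r F)).finite
  have : Finite A := Module.finite_of_finite F
  have h0 : aeval ζ (cyclotomic r F) = 0 := by
    rw [AdjoinRoot.aeval_eq, AdjoinRoot.mk_self]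
  have h0' : ∑ k ∈ Finset.range r, ζ ^ k = 0 := by
    have h : aeval ζ (∑ k ∈ Finset.range r, (X : F[X]) ^ k) = 0 :=
      (congrArg (aeval ζ) (cyclotomic_prime F r).symm).trans h0
    simpa using h
  have h1 : ζ ^ r = 1 := by
    have := congrArg (aeval ζ) (cyclotomic_prime_mul_X_sub_one F r)
    rw [map_mul, h0, zero_mul] at this
    simpa [sub_eq_zero] using this.symm
  have h3 : ∀ m n : ℕ, (m : ZMod r) = n → ζ ^ m = ζ ^ n := fun m n h => by
    rw [pow_eq_pow_mod m h1, pow_eq_pow_mod n h1, (ZMod.natCast_eq_natCast_iff' _ _ _).1 h]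
  let φ := FiniteField.frobeniusAlgHom F A
  have h4 : ∀ (n : ℕ) (a : A), (φ ^ n) a = a ^ Fintype.card F ^ n := fun n a => by
    induction n with
    | zero => simp
    | succ n ih => rw [pow_succ', AlgHom.mul_apply, ih, pow_succ, pow_mul]; rfl
  have h5 : φ ^ (2 * b) = 1 := AdjoinRoot.algHom_ext (by
    rw [h4]
    exact (h3 _ 1 (by rw [Nat.cast_pow, ← hi, pow_orderOf_eq_one, Nat.cast_one])).trans (pow_one _))
  have : IsReduced A := (isReduced_iff_pow_one_lt (Fintype.card F ^ (2 * b))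
    (Nat.one_lt_pow (by omega) Fintype.one_lt_card)).2 fun x hx => by
      rw [← h4, h5] at hx; exact hx
  have h6 : ∀ I : MaximalSpectrum A, IsSquare (algebraMap F (A ⧸ I.asIdeal) δ) := fun I => by
    have := I.isMaximal
    let _ := Ideal.Quotient.field I.asIdeal
    have : Finite (A ⧸ I.asIdeal) := Finite.of_surjective _ Ideal.Quotient.mk_surjective
    have := Fintype.ofFinite (A ⧸ I.asIdeal)
    refine isSquare_of_even h2 ?_ δ
    let π := Ideal.Quotient.mkₐ F I.asIdeal
    have h7 : π ζ ≠ 1 := fun h => hrF ((algebraMap F (A ⧸ I.asIdeal)).injective (by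
      have := congrArg π h0'
      simpa [h] using this))
    have h8 : orderOf (π ζ) = r := orderOf_eq_prime (by rw [← map_pow, h1, map_one]) h7
    have h9 : π ζ ≠ 0 := fun h => by
      have := congrArg π h1
      rw [map_pow, h, zero_pow hr.out.ne_zero, map_one] at this
      exact zero_ne_one this
    have h10 := orderOf_dvd_of_pow_eq_one (FiniteField.pow_card_sub_one_eq_one _ h9)
    rw [h8, Module.card_eq_pow_finrank (K := F), ← ZMod.natCast_eq_zero_iff,
      Nat.cast_sub (pow_pos Fintype.card_pos _), Nat.cast_pow, Nat.cast_one, sub_eq_zero,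
      ← orderOf_dvd_iff_pow_eq_one, hi] at h10
    exact (even_two_mul b).trans_dvd h10
  choose s hs using h6
  obtain ⟨j, hj⟩ := (IsArtinianRing.equivPi A).surjective s
  have h7 : j * j = algebraMap F A δ := (IsArtinianRing.equivPi A).injective (by
    rw [map_mul, hj]
    exact funext fun I => (hs I).symm)
  have h8 : φ j = -j := by
    obtain ⟨k, hk⟩ := two_ne_zero_iff_odd_card.1 h2
    have h9 : δ ^ k = -1 := by
      have h10 := ringChar_ne_two h2
      have h11 : Fintype.card F / 2 = k := by omega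
      have := FiniteField.pow_dichotomy h10 (ne_zero_of_nsq hδ)
      rw [← FiniteField.isSquare_iff h10 (ne_zero_of_nsq hδ), h11] at this
      exact this.resolve_left hδ
    change j ^ Fintype.card F = _
    rw [hk, pow_succ, pow_mul, _root_.sq, h7, ← map_pow, h9, map_neg, map_one, neg_one_mul]
  have h9 : (φ ^ b) j = j := by
    obtain ⟨c, rfl⟩ := he
    clear hb hi h5
    induction c with
    | zero => rfl
    | succ c ih =>
      rw [show c + 1 + (c + 1) = c + c + 1 + 1 by ring, pow_succ, pow_succ, AlgHom.mul_apply,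
        AlgHom.mul_apply, h8, map_neg, h8, neg_neg, ih]
  obtain ⟨j, rfl⟩ := AdjoinRoot.mk_surjective j
  refine ⟨j, AdjoinRoot.mk_eq_mk.1 (by rw [map_mul, h7]; rfl), AdjoinRoot.mk_eq_mk.1 ?_⟩
  rw [← h9, ← AdjoinRoot.aeval_eq, ← AdjoinRoot.aeval_eq, aeval_comp, ← aeval_algHom_apply, h4,
    map_pow, aeval_X]
  congr 2
  exact h3 _ _ (by
    rw [Nat.cast_pow, H77.pow_half_eq_neg_one hb hi, Nat.cast_sub hr.out.one_le]; simp)

end Poly

variable {F V : Type*} [Field F] [AddCommGroup V] [Module F V] {Q : QuadraticForm F V} {δ : F}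
  {S : Set (O Q)} {M : Submodule F V}

theorem aeval_mem {T : End F V} (hT : ∀ v ∈ M, T v ∈ M) (f : F[X]) :
    ∀ v ∈ M, aeval T f v ∈ M := fun _ hv => Polynomial.aeval_apply_smul_mem_of_le_comap hv f T hT

theorem map_aeval_comm {T g : End F V} (hT : ∀ v ∈ M, T v ∈ M)
    (hc : ∀ v ∈ M, g (T v) = T (g v)) (f : F[X]) : ∀ v ∈ M, g (aeval T f v) = aeval T f (g v) := by
  have h1 : ∀ n : ℕ, ∀ v ∈ M, g ((T ^ n) v) = (T ^ n) (g v) := fun n => by
    induction n with
    | zero => simp
    | succ n ih => intro v hv; rw [pow_succ, End.mul_apply, ih _ (hT v hv), hc v hv]; rfl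
  intro v hv
  induction f using Polynomial.induction_on' with
  | add f f' h h' => simp [h, h']
  | monomial n a => simp [aeval_monomial, h1 n v hv]

theorem polar_aeval {z : O Q} {r : ℕ} (hr : 0 < r) (hz : ∀ v ∈ M, (z ^ r).1 v = v) (f : F[X])
    (u : V) : ∀ v ∈ M, polar Q (aeval (z.1 : End F V) f u) v =
      polar Q u (aeval (z.1 : End F V) (f.comp (X ^ (r - 1))) v) := by
  intro v hv
  have h1 : ∀ n : ℕ, ((z ^ r) ^ n).1 v = v := fun n => by
    induction n with
    | zero => rfl
    | succ n ih => rw [pow_succ, O_mul_apply, hz v hv, ih]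
  induction f using Polynomial.induction_on' with
  | add f f' h h' => simp [h, h', polar_add_left, polar_add_right]
  | monomial n a =>
    have h3 : polar Q ((z ^ n).1 u) v = polar Q u ((z ^ ((r - 1) * n)).1 v) := by
      rw [← O_polar (z ^ n) u, ← O_mul_apply, ← pow_add,
        show n + (r - 1) * n = r * n by
          obtain ⟨r, rfl⟩ := Nat.exists_eq_add_of_le' hr
          simp; ring, pow_mul, h1]
    simp only [monomial_comp, map_mul, aeval_monomial, aeval_C, map_pow, aeval_X, ← pow_mul,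
      ← coe_O_pow, End.mul_apply, Module.algebraMap_end_apply, polar_smul_left', polar_smul_right',
      LinearEquiv.coe_coe, h3]

variable [FiniteDimensional F V] [Fintype F]

theorem step_central (h2 : (2 : F) ≠ 0) (hδ : ¬ IsSquare δ) {r b : ℕ} [hr : Fact r.Prime]
    (hrF : (r : F) ≠ 0) (hb : 0 < b) (hi : orderOf (Fintype.card F : ZMod r) = 2 * b)
    (he : Even b) (hM : NondegOn Q M) (hS : ∀ g ∈ S, Inv g M) {z : O Q} (hzM : Inv z M)
    (hz : ∀ v ∈ M, (z ^ r).1 v = v) (hz1 : ∃ v ∈ M, z.1 v ≠ v)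
    (hc : ∀ g ∈ S, ∀ v ∈ M, g.1 (z.1 v) = z.1 (g.1 v)) :
    ∃ U ≤ M, U ≠ ⊥ ∧ NondegOn Q U ∧ (∀ g ∈ S, Inv g U) ∧ ∃ J, JOn Q δ S 1 U J := by
  obtain ⟨j, ⟨k, hk⟩, ⟨l, hl⟩⟩ := exists_poly h2 hδ hrF hb hi he
  let T : End F V := z.1
  let U := M ⊓ LinearMap.ker (aeval T (cyclotomic r F))
  have h1 : ∀ v ∈ M, z.1 v - v ∈ U := fun v hv => ⟨M.sub_mem (hzM v hv) hv, by
    have := congrArg (fun f => aeval T f v) (cyclotomic_prime_mul_X_sub_one F r)
    simp only [map_mul, map_sub, map_pow, aeval_X, map_one, End.mul_apply, LinearMap.sub_apply,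
      End.one_apply] at this
    rw [← coe_O_pow] at this
    refine (LinearMap.mem_ker.2 ?_)
    rw [map_sub]
    exact this.trans (sub_eq_zero.2 (hz v hv))⟩
  have h3 : ∀ f : F[X], ∀ v ∈ U, aeval T (cyclotomic r F * f) v = 0 := fun f v hv => by
    rw [mul_comm, map_mul, End.mul_apply, LinearMap.mem_ker.1 hv.2, map_zero]
  refine ⟨U, inf_le_left, fun h => ?_, fun x hx hx' => ?_, fun g hg v hv => ⟨hS g hg v hv.1, ?_⟩,
    aeval T j, fun v hv => ⟨aeval_mem hzM j v hv.1, ?_⟩, fun v hv => ?_, fun u hu v hv => ?_,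
    fun g hg v hv => ?_⟩
  · obtain ⟨v, hv, hv'⟩ := hz1
    exact hv' (sub_eq_zero.1 ((Submodule.eq_bot_iff _).1 h _ (h1 v hv)))
  · have h4 : (z⁻¹).1 x = x := sub_eq_zero.1 (hM _ (M.sub_mem (inv_mem_of_forall_mem z M hzM x hx.1)
      hx.1) fun y hy => by
        have := hx' _ (h1 y hy)
        rwa [polar_sub_right, polar_comm, O_polar_inv, polar_comm, ← polar_sub_left] at this)
    have h5 : T x = x := (O_inv_apply_eq.1 h4).symm
    have h6 : ∀ n : ℕ, (T ^ n) x = x := fun n => by
      induction n with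
      | zero => rfl
      | succ n ih => rw [pow_succ, End.mul_apply, h5, ih]
    have h7 := LinearMap.mem_ker.1 hx.2
    rw [cyclotomic_prime] at h7
    simp only [map_sum, map_pow, aeval_X, LinearMap.sum_apply, h6, Finset.sum_const,
      Finset.card_range] at h7
    rw [← Nat.cast_smul_eq_nsmul F] at h7
    exact (smul_eq_zero.1 h7).resolve_left hrF
  · have := map_aeval_comm (g := (g.1 : End F V)) hzM (hc g hg) (cyclotomic r F) v hv.1
    rw [LinearMap.mem_ker.1 hv.2, map_zero] at this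
    exact this.symm
  · rw [SetLike.mem_coe, LinearMap.mem_ker, ← End.mul_apply, ← map_mul]
    exact h3 j v hv
  · have := h3 k v hv
    rw [← hk] at this
    simpa [sub_eq_zero] using this
  · have := h3 l v hv
    rw [← hl, map_sub, LinearMap.sub_apply, sub_eq_zero] at this
    rw [polar_aeval hr.out.pos hz j u v hv.1, this]
  · rw [one_smul]
    exact map_aeval_comm (g := (g.1 : End F V)) hzM (hc g hg) j v hv.1

theorem exists_isJ_pgroup (h2 : (2 : F) ≠ 0) (hδ : ¬ IsSquare δ) {r b : ℕ} [hr : Fact r.Prime]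
    (hrF : (r : F) ≠ 0) (hb : 0 < b) (hi : orderOf (Fintype.card F : ZMod r) = 2 * b)
    (he : Even b) (hQ : (polarBilin Q).Nondegenerate) (hV : Even (finrank F V))
    {P : Subgroup (O Q)} (hP : IsPGroup r P) :
    ∃ J, IsJ Q δ J ∧ ∀ g ∈ P, ∀ v, g.1 (J v) = J (g.1 v) := by
  have := H77.finite_linearEquiv' (F := F) (V := V)
  obtain ⟨J, hJ⟩ := exists_jOn (S := (P : Set (O Q))) (ε := 1) hδ (M₀ := ⊤) (fun M _ hM hS h3 h0 => by
      by_cases h : ∀ g ∈ P, ∀ v ∈ M, g.1 v = v
      · exact step_scalar h2 hM h3 h0 fun g hg => ⟨1, fun v hv => by rw [h g hg v hv, one_smul]⟩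
      let φ : P →* O (Q.restrict M) :=
        { toFun := fun g => restrictO g.1 M (hS g.1 g.2)
          map_one' := O_ext fun _ => rfl
          map_mul' := fun _ _ => O_ext fun _ => rfl }
      have h4 : IsPGroup r φ.range := hP.of_surjective φ.rangeRestrict φ.rangeRestrict_surjective
      have : Nontrivial φ.range := by
        by_contra h5
        rw [not_nontrivial_iff_subsingleton] at h5
        exact h fun g hg v hv => congrArg (fun x : φ.range => (x.1.1 ⟨v, hv⟩ : V))
          (h5.elim ⟨φ ⟨g, hg⟩, _, rfl⟩ 1)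
      have : Finite φ.range := Finite.of_surjective _ φ.rangeRestrict_surjective
      have := h4.center_nontrivial
      obtain ⟨n, hn0, hn⟩ := (h4.to_subgroup (Subgroup.center _)).nontrivial_iff_card.1 this
      obtain ⟨⟨⟨_, z, rfl⟩, hz⟩, h5⟩ := exists_prime_orderOf_dvd_card' (G := Subgroup.center φ.range) r
        (hn ▸ dvd_pow_self r hn0.ne')
      obtain ⟨h6, h7⟩ := orderOf_eq_prime_iff.1 h5
      refine step_central h2 hδ hrF hb hi he hM hS (z := z.1) (hS _ z.2) (fun v hv => ?_) ?_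
        fun g hg v hv => ?_
      · have h8 : φ (z ^ r) = 1 := by rw [map_pow]; exact congrArg (fun x => x.1.1) h6
        exact congrArg (fun x : O (Q.restrict M) => (x.1 ⟨v, hv⟩ : V)) h8
      · by_contra! h8
        exact h7 (Subtype.ext (Subtype.ext (O_ext fun v => Subtype.ext (h8 v v.2))))
      · exact congrArg (fun x : φ.range => (x.1.1 ⟨v, hv⟩ : V))
          (Subgroup.mem_center_iff.1 hz ⟨φ ⟨g, hg⟩, _, rfl⟩))
    le_top (nondegOn_top hQ) (fun _ _ _ _ => trivial) (by rwa [finrank_top])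
  exact ⟨J, hJ.isJ, fun g hg v => by simpa using hJ.comm g hg v trivial⟩

end Cfsg.Agent.H33.QExt
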